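import Mathlib
import Cfsg.Agent.Tr.MC13
import Cfsg.Agent.H1.Small3
import Cfsg.Agent.H1.NormalRank2

/-! # p-groups all of whose abelian normal subgroups are cyclic -/

namespace Cfsg.Agent.H17.CycNormal

open Subgroup Cfsg.Agent.Tr.MC
open scoped Pointwise

universe u

/-- the four-group generated by a central involution and another involution -/
theorem four_sup {G : Type u} [Group G] [Finite G] (hP : IsPGroup 2 G) {z t : G}
    (hz : orderOf z = 2) (ht : orderOf t = 2) (hzc : z ∈ center G) (hne : t ≠ z) :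
    Nat.card (zpowers z ⊔ zpowers t : Subgroup G) = 4 ∧
      ¬ IsCyclic (zpowers z ⊔ zpowers t : Subgroup G) := by
  classical
  have : Fact (Nat.Prime 2) := ⟨Nat.prime_two⟩
  haveI : (zpowers z).Normal := by
    constructor
    intro n hn g
    obtain ⟨i, rfl⟩ := mem_zpowers_iff.1 hn
    have : g * z ^ i * g⁻¹ = z ^ i := by
      have h1 : z ^ i ∈ center G := (center G).zpow_mem hzc i
      rw [Subgroup.mem_center_iff.1 h1 g, mul_inv_cancel_right]
    rw [this]
    exact zpow_mem_zpowers _ _
  set V := zpowers z ⊔ zpowers t with hV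
  have hzV : z ∈ V := (le_sup_left : zpowers z ≤ V) (mem_zpowers z)
  have htV : t ∈ V := (le_sup_right : zpowers t ≤ V) (mem_zpowers t)
  have hz1 : z ≠ 1 := by rintro rfl; rw [orderOf_one] at hz; omega
  have ht1 : t ≠ 1 := by rintro rfl; rw [orderOf_one] at ht; omega
  have hle : Nat.card V ≤ 4 := by
    have h1 : Nat.card V = Nat.card ((zpowers z : Set G) * (zpowers t : Set G) : Set G) := by
      rw [← Subgroup.normal_mul]; rfl
    rw [h1]
    refine Set.natCard_mul_le.trans ?_
    have h2 : Nat.card (zpowers z : Set G) = 2 := by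
      have := Nat.card_zpowers z; rw [hz] at this; exact this
    have h3 : Nat.card (zpowers t : Set G) = 2 := by
      have := Nat.card_zpowers t; rw [ht] at this; exact this
    rw [h2, h3]
  have h3 : ({1, ⟨z, hzV⟩, ⟨t, htV⟩} : Finset V).card = 3 := by
    rw [Finset.card_eq_three]
    refine ⟨1, ⟨z, hzV⟩, ⟨t, htV⟩, ?_, ?_, ?_, rfl⟩
    · intro h; exact hz1 (congrArg Subtype.val h).symm
    · intro h; exact ht1 (congrArg Subtype.val h).symm
    · intro h; exact hne (congrArg Subtype.val h).symm
  letI : Fintype V := Fintype.ofFinite V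
  have hge : 3 ≤ Nat.card V := by
    rw [← h3, Nat.card_eq_fintype_card]
    exact Finset.card_le_univ _
  refine ⟨?_, ?_⟩
  · obtain ⟨j, hj⟩ := IsPGroup.iff_card.mp (hP.to_subgroup V)
    rw [hj] at hle hge ⊢
    rcases (by omega : j ≤ 1 ∨ j = 2 ∨ 3 ≤ j) with h | rfl | h
    · have := Nat.pow_le_pow_right (show 0 < 2 by norm_num) h
      omega
    · norm_num
    · have := Nat.pow_le_pow_right (show 0 < 2 by norm_num) h
      omega
  · intro hcyc
    have h4 := IsCyclic.card_pow_eq_one_le (α := V) (n := 2) (by norm_num)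
    have h5 : ({1, ⟨z, hzV⟩, ⟨t, htV⟩} : Finset V) ⊆ Finset.univ.filter (fun a : V => a ^ 2 = 1) := by
      intro x hx
      simp only [Finset.mem_insert, Finset.mem_singleton] at hx
      simp only [Finset.mem_filter, Finset.mem_univ, true_and]
      rcases hx with rfl | rfl | rfl
      · simp
      · apply Subtype.ext
        show z ^ 2 = 1
        rw [← hz, pow_orderOf_eq_one]
      · apply Subtype.ext
        show t ^ 2 = 1
        rw [← ht, pow_orderOf_eq_one]
    have h6 := Finset.card_le_card h5
    rw [h3] at h6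
    omega

theorem isMulCommutative_of_card_four {G : Type u} [Group G] (V : Subgroup G)
    (hV : Nat.card V = 4) : IsMulCommutative V := by
  have : Fact (Nat.Prime 2) := ⟨Nat.prime_two⟩
  exact ⟨⟨fun x y => IsPGroup.commutative_of_card_eq_prime_sq (p := 2) (by rw [hV]; norm_num) x y⟩⟩

/-- normality of `⟨z⟩⟨y⟩` from the images of the generators -/
theorem sup_normal {G : Type u} [Group G] {z y : G} (hz : ∀ g : G, g * z * g⁻¹ = z)
    (hy : ∀ g : G, g * y * g⁻¹ ∈ (zpowers z ⊔ zpowers y : Subgroup G)) :
    (zpowers z ⊔ zpowers y : Subgroup G).Normal := by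
  constructor
  intro n hn g
  have h1 : (zpowers z ⊔ zpowers y : Subgroup G).map (MulAut.conj g).toMonoidHom ≤
      zpowers z ⊔ zpowers y := by
    rw [Subgroup.map_sup, MonoidHom.map_zpowers, MonoidHom.map_zpowers]
    apply sup_le
    · rw [zpowers_le]
      show g * z * g⁻¹ ∈ _
      rw [hz]
      exact (le_sup_left : zpowers z ≤ _) (mem_zpowers z)
    · rw [zpowers_le]
      exact hy g
  exact h1 ⟨n, hn, rfl⟩

end Cfsg.Agent.H17.CycNormal
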