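import Mathlib
import Cfsg.Agent.H17.CycNormal

/-! # 2-groups all of whose abelian normal subgroups are cyclic -/

namespace Cfsg.Agent.H17.CycNormal

open Subgroup Cfsg.Agent.Tr.MC
open scoped Pointwise

universe u

theorem dat_of_cyclic_normal {G : Type u} [Group G] [Finite G] (hG : IsPGroup 2 G)
    (hn : ∀ A : Subgroup G, A.Normal → IsMulCommutative A → IsCyclic A) (hnc : ¬ IsCyclic G) :
    ∃ (m : ℕ) (a b : G), 2 ≤ m ∧ Dat G m a b := by
  have : Fact (Nat.Prime 2) := ⟨Nat.prime_two⟩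
  have hnil : Group.IsNilpotent G := hG.isNilpotent
  obtain ⟨A, hA⟩ := (Set.toFinite {M : Subgroup G | M.Normal ∧ IsMulCommutative M}).exists_maximal
    ⟨⊥, inferInstance, inferInstance⟩
  obtain ⟨⟨hAn, hAc⟩, hAmax⟩ := hA
  have hCA : Subgroup.centralizer (A : Set G) = A := by
    apply Cfsg.H1.self_centralizing_of_max_abelian_normal A
    intro M hMn hMc hAM
    exact le_antisymm (hAmax ⟨hMn, hMc⟩ hAM) hAM
  have hcyc : IsCyclic A := hn A hAn hAc
  obtain ⟨⟨a, haA⟩, hgen⟩ := hcyc.exists_generator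
  have hAz : A = Subgroup.zpowers a := by
    apply le_antisymm
    · intro g hg
      obtain ⟨k, hk⟩ := Subgroup.mem_zpowers_iff.1 (hgen ⟨g, hg⟩)
      rw [Subgroup.mem_zpowers_iff]
      exact ⟨k, by simpa using congrArg Subtype.val hk⟩
    · rw [Subgroup.zpowers_le]; exact haA
  have htop : A ≠ ⊤ := by
    intro htop
    apply hnc
    refine ⟨a, fun g => ?_⟩
    have : g ∈ A := by rw [htop]; trivial
    rwa [hAz] at this
  have hmemC : ∀ g : G, g * a = a * g → g ∈ Subgroup.zpowers a := by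
    intro g hg
    rw [← hAz, ← hCA, hAz, Subgroup.mem_centralizer_iff]
    intro t ht
    obtain ⟨k, rfl⟩ := Subgroup.mem_zpowers_iff.1 ht
    exact ((show Commute g a from hg).zpow_right k).eq.symm
  have hmemC' : ∀ g : G, g * a * g⁻¹ = a → g ∈ Subgroup.zpowers a := by
    intro g hg
    apply hmemC
    rwa [mul_inv_eq_iff_eq_mul] at hg
  have hnorm : ∀ g : G, g * a * g⁻¹ ∈ Subgroup.zpowers a := by
    intro g
    rw [← hAz]
    exact hAn.conj_mem a haA g
  obtain ⟨m, hm⟩ : ∃ m, orderOf a = 2 ^ m := by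
    obtain ⟨k, hk⟩ := hG a
    obtain ⟨m, -, hm⟩ := (Nat.dvd_prime_pow Nat.prime_two).1 (orderOf_dvd_of_pow_eq_one hk)
    exact ⟨m, hm⟩
  obtain ⟨x₀, hx₀⟩ : ∃ x : G, x ∉ Subgroup.zpowers a := by
    by_contra hcon
    push Not at hcon
    apply htop
    rw [hAz, eq_top_iff]
    intro g _
    exact hcon g
  have hm2 : 2 ≤ m := by
    by_contra hlt
    apply hx₀
    apply hmemC
    have h01 : m = 0 ∨ m = 1 := by omega
    have ha2 : a ^ 2 = 1 := by
      rcases h01 with rfl | rfl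
      · rw [pow_zero, orderOf_eq_one_iff] at hm; rw [hm, one_pow]
      · rw [pow_one] at hm; rw [← hm, pow_orderOf_eq_one]
    rcases mem_zpowers_two ha2 (hnorm x₀) with h | h
    · have : a = 1 := by
        have h3 : a = x₀⁻¹ * (x₀ * a * x₀⁻¹) * x₀ := by group
        rw [h3, h]; group
      rw [this]; simp
    · calc x₀ * a = (x₀ * a * x₀⁻¹) * x₀ := by group
        _ = a * x₀ := by rw [h]
  set z := a ^ 2 ^ (m - 1) with hzdef
  have hz2 : z ^ 2 = 1 := z_sq (by omega) hm
  have hz1 : z ≠ 1 := z_ne_one (by omega) hm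
  have hoz : orderOf z = 2 := orderOf_eq_prime hz2 hz1
  have hzA : z ∈ zpowers a := (zpowers a).pow_mem (mem_zpowers a) _
  have hzconj : ∀ g : G, g * z * g⁻¹ = z := by
    intro g
    have h1 : g * z * g⁻¹ ∈ zpowers a := by
      rw [hzdef, ← conj_pow]
      exact (zpowers a).pow_mem (hnorm g) _
    have h2 : (g * z * g⁻¹) ^ 2 = 1 := by rw [conj_pow, hz2]; group
    rcases eq_one_or_z (by omega) hm h1 h2 with h | h
    · exfalso; apply hz1
      have : z = g⁻¹ * (g * z * g⁻¹) * g := by group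
      rw [this, h]; group
    · exact h
  have hzc : z ∈ center G := by
    rw [Subgroup.mem_center_iff]
    intro g
    have := hzconj g
    rwa [mul_inv_eq_iff_eq_mul] at this
  have haz : Commute a z := (Commute.refl a).pow_right _
  -- commutators lie in `A`
  have hcomm : ∀ u v : G, u * v * u⁻¹ * v⁻¹ ∈ zpowers a := by
    intro u v
    obtain ⟨i, hi⟩ := mem_zpowers_iff.1 (hnorm u⁻¹)
    obtain ⟨j, hj⟩ := mem_zpowers_iff.1 (hnorm v⁻¹)
    rw [inv_inv] at hi hj
    -- u⁻¹ a u = a ^ i, v⁻¹ a v = a ^ j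
    have hi' : ∀ k : ℤ, u⁻¹ * a ^ k * u = a ^ (i * k) := by
      intro k
      have : u⁻¹ * a ^ k * u = (u⁻¹ * a * u) ^ k := by
        have := conj_zpow (a := u⁻¹) (b := a) (i := k)
        rw [inv_inv] at this
        exact this.symm
      rw [this, ← hi, ← zpow_mul]
    have hj' : ∀ k : ℤ, v⁻¹ * a ^ k * v = a ^ (j * k) := by
      intro k
      have : v⁻¹ * a ^ k * v = (v⁻¹ * a * v) ^ k := by
        have := conj_zpow (a := v⁻¹) (b := a) (i := k)
        rw [inv_inv] at this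
        exact this.symm
      rw [this, ← hj, ← zpow_mul]
    have h1 : (u * v)⁻¹ * a * (u * v) = (v * u)⁻¹ * a * (v * u) := by
      have e1 : (u * v)⁻¹ * a * (u * v) = v⁻¹ * (u⁻¹ * a * u) * v := by group
      have e2 : (v * u)⁻¹ * a * (v * u) = u⁻¹ * (v⁻¹ * a * v) * u := by group
      rw [e1, e2, ← hi, ← hj, hi', hj', mul_comm]
    apply hmemC
    have h2 : a * (u * v) = (u * v) * ((v * u)⁻¹ * a * (v * u)) := by
      rw [← h1]; group
    calc u * v * u⁻¹ * v⁻¹ * a = (u * v) * ((v * u)⁻¹ * a * (v * u)) * (v * u)⁻¹ := by group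
      _ = a * (u * v) * (v * u)⁻¹ := by rw [← h2]
      _ = a * (u * v * u⁻¹ * v⁻¹) := by group
  -- no modular action
  have hmod : ∀ y : G, 3 ≤ m → y ∉ zpowers a → y ^ 2 = 1 → y * a * y⁻¹ = a * z → False := by
    intro y hm3 hyA hy2 hya
    have hy1 : y ≠ 1 := by rintro rfl; exact hyA (one_mem _)
    have hoy : orderOf y = 2 := orderOf_eq_prime hy2 hy1
    have hyz : y ≠ z := by rintro rfl; exact hyA hzA
    obtain ⟨hc4, hncyc⟩ := four_sup hG hoz hoy hzc hyz
    have hnormal : (zpowers z ⊔ zpowers y : Subgroup G).Normal := by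
      apply sup_normal hzconj
      intro g
      obtain ⟨k, hk⟩ := mem_zpowers_iff.1 (hcomm y⁻¹ g)
      rw [inv_inv] at hk
      have hgy : g * y * g⁻¹ = y * a ^ k := by rw [hk]; group
      obtain ⟨μ, rfl⟩ := Nat.exists_eq_add_of_le hm3
      have e1 : (2 : ℕ) ^ (3 + μ - 1) = 4 * 2 ^ μ := by
        have : 3 + μ - 1 = μ + 2 := by omega
        rw [this, pow_add]; ring
      have e2 : (2 : ℕ) ^ (3 + μ) = 8 * 2 ^ μ := by rw [pow_add]; norm_num
      set v : ℤ := 2 ^ μ with hv
      have hv0 : v ≠ 0 := by positivity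
      have hzv : z = a ^ (4 * v) := by
        rw [hzdef, e1, ← zpow_natCast]; congr 1
      have hr : y * a * y⁻¹ = a ^ (1 + 4 * v) := by
        rw [hya, hzv, zpow_add, zpow_one]
      have hs : y ^ 2 = a ^ (0 : ℤ) := by rw [hy2, zpow_zero]
      have hsq := sq_mul_zpow hr hs k
      have h1 : (y * a ^ k) ^ 2 = 1 := by
        rw [← hgy, conj_pow, hy2]; group
      rw [h1] at hsq
      have ha' : orderOf a = 8 * 2 ^ μ := by rw [hm, e2]
      have h2 := dvd_of_zpow_eq_one ha' hsq.symm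
      have h3 : (4 * v) ∣ k := by
        have h4 : (2 : ℤ) * (4 * v) ∣ 2 * ((1 + 2 * v) * k) := by
          have e : ((8 * 2 ^ μ : ℕ) : ℤ) = 2 * (4 * v) := by rw [hv]; push_cast; ring
          rw [e] at h2
          have e' : (1 + 4 * v) * k + 0 + k = 2 * ((1 + 2 * v) * k) := by ring
          rwa [e'] at h2
        have h5 : (4 * v) ∣ (1 + 2 * v) * k := (mul_dvd_mul_iff_left (by norm_num)).1 h4
        have hcop : IsCoprime (4 * v) (1 + 2 * v) := by
          have h6 : IsCoprime (2 : ℤ) (1 + 2 * v) := ⟨-v, 1, by ring⟩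
          have h7 : (4 * v) = 2 ^ (μ + 2) := by rw [hv]; ring
          rw [h7]
          exact h6.pow_left
        exact hcop.dvd_of_dvd_mul_left h5
      obtain ⟨c, rfl⟩ := h3
      rw [hgy, zpow_mul, ← hzv]
      exact mul_mem ((le_sup_right : zpowers y ≤ _) (mem_zpowers y))
        ((le_sup_left : zpowers z ≤ _) (zpow_mem_zpowers z c))
    exact hncyc (hn _ hnormal (isMulCommutative_of_card_four _ hc4))
  -- elements outside `A` whose square is in `A`
  have star : ∀ x : G, x ∉ Subgroup.zpowers a → x ^ 2 ∈ Subgroup.zpowers a →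
      x * a * x⁻¹ = a⁻¹ ∨ (3 ≤ m ∧ x * a * x⁻¹ = a⁻¹ * z) := by
    intro x hx hx2
    have hab : x * a * x⁻¹ ≠ a := fun h => hx (hmemC' x h)
    obtain ⟨b, hb, hbx, h | h | h | h⟩ := classify_elt hm2 hm hx (hnorm x) hx2 hab
    · left; rw [← hbx, h.2]
    · left; rw [← hbx, h.2]
    · exact (hmod b h.1 hb h.2.1 h.2.2).elim
    · right; exact ⟨h.1, by rw [← hbx, h.2.2]⟩
  have hfin : IsOfFinOrder a := by
    rw [← orderOf_pos_iff, hm]; positivity
  have hsq : ∀ i : ℕ, ∀ w : G, w ^ 2 ^ (i + 1) ∈ Subgroup.zpowers a →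
      w ^ 2 ∈ Subgroup.zpowers a := by
    intro i
    induction i with
    | zero => intro w hw; simpa using hw
    | succ i ih =>
      intro w hw
      have h1 : (w ^ 2) ^ 2 ∈ Subgroup.zpowers a := by
        apply ih
        rw [← pow_mul, ← pow_succ']
        exact hw
      by_contra hw2
      obtain ⟨r, hr⟩ := (hfin.mem_powers_iff_mem_zpowers).2 (hnorm w)
      have hr' : a ^ r = w * a * w⁻¹ := hr
      have h3' : a ^ (r ^ 2) = w ^ 2 * a * (w ^ 2)⁻¹ := by
        rw [sq, pow_mul, hr', conj_pow, hr', sq]; group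
      apply sq_add_one_not_dvd r
      rcases star (w ^ 2) hw2 h1 with h2 | ⟨hm3, h2⟩
      · have h4 : a ^ (r ^ 2 + 1) = 1 := by rw [pow_succ, h3', h2, inv_mul_cancel]
        have h5 := orderOf_dvd_of_pow_eq_one h4
        rw [hm] at h5
        refine dvd_trans ?_ h5
        calc (4 : ℕ) = 2 ^ 2 := by norm_num
          _ ∣ 2 ^ m := pow_dvd_pow 2 hm2
      · have h4 : a ^ (r ^ 2 + 1) = z := by
          rw [pow_succ, h3', h2, haz.inv_left.eq, mul_assoc, inv_mul_cancel, mul_one]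
        have h5 : a ^ ((r ^ 2 + 1) * 2) = 1 := by rw [pow_mul, h4, hz2]
        have h6 := orderOf_dvd_of_pow_eq_one h5
        rw [hm] at h6
        obtain ⟨μ, rfl⟩ := Nat.exists_eq_add_of_le hm3
        have e2 : (2 : ℕ) ^ (3 + μ) = (4 * 2 ^ μ) * 2 := by rw [pow_add]; ring
        rw [e2] at h6
        have h7 := Nat.dvd_of_mul_dvd_mul_right (by norm_num) h6
        exact (Dvd.intro _ rfl).trans h7
  have hsq' : ∀ w : G, w ^ 2 ∈ Subgroup.zpowers a := by
    intro w
    obtain ⟨k, hk⟩ := hG w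
    apply hsq k
    rw [pow_succ, pow_mul, hk, one_pow]
    exact Subgroup.one_mem _
  have hT : ∀ x : G, x ∉ Subgroup.zpowers a →
      x * a * x⁻¹ = a⁻¹ ∨ (3 ≤ m ∧ x * a * x⁻¹ = a⁻¹ * z) := fun x hx => star x hx (hsq' x)
  have ha2 : a ^ 2 ≠ 1 := by
    intro h
    have := orderOf_dvd_of_pow_eq_one h
    rw [hm] at this
    have h2 : (2 : ℕ) ^ m ∣ 2 ^ 1 := by simpa using this
    have := (Nat.pow_dvd_pow_iff_le_right (by norm_num : 1 < 2)).1 h2
    omega
  have hmixed : ∀ x : G, 3 ≤ m → x * a * x⁻¹ = a * z → False := by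
    intro x hm3 hx
    have hxA : x ∉ zpowers a := by
      intro h
      obtain ⟨k, rfl⟩ := mem_zpowers_iff.1 h
      have : a ^ k * a * (a ^ k)⁻¹ = a := by
        rw [← zpow_add_one, ← zpow_neg, ← zpow_add]; simp
      rw [this] at hx
      exact hz1 (by simpa using hx.symm)
    rcases hT x hxA with h | ⟨-, h⟩
    · rw [hx] at h
      -- a z = a⁻¹, so a ^ 4 = 1
      have h1 : a ^ 2 = z := by
        have : a * a * z = 1 := by
          rw [mul_assoc, h, mul_inv_cancel]
        have h2 : a * a = z⁻¹ := eq_inv_of_mul_eq_one_left this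
        have h3 : z⁻¹ = z := by
          rw [inv_eq_iff_mul_eq_one, ← sq, hz2]
        rw [sq, h2, h3]
      have h4 : a ^ 4 = 1 := by
        have : a ^ 4 = (a ^ 2) ^ 2 := by rw [← pow_mul]
        rw [this, h1, hz2]
      have := orderOf_dvd_of_pow_eq_one h4
      rw [hm] at this
      have h2 : (2 : ℕ) ^ m ∣ 2 ^ 2 := by simpa using this
      have := (Nat.pow_dvd_pow_iff_le_right (by norm_num : 1 < 2)).1 h2
      omega
    · rw [hx] at h
      have h1 : a = a⁻¹ := mul_right_cancel h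
      apply ha2
      rw [sq]
      nth_rewrite 1 [h1]
      exact inv_mul_cancel a
  have hidx : (Subgroup.zpowers a).index = 2 := by
    rw [Subgroup.index_eq_two_iff]
    refine ⟨x₀, fun g => ?_⟩
    by_cases hg : g ∈ Subgroup.zpowers a
    · right
      refine ⟨hg, fun h => hx₀ ?_⟩
      have := (Subgroup.zpowers a).mul_mem ((Subgroup.zpowers a).inv_mem hg) h
      rwa [inv_mul_cancel_left] at this
    · left
      refine ⟨?_, hg⟩
      have e0 : g * x₀ * a * (g * x₀)⁻¹ = g * (x₀ * a * x₀⁻¹) * g⁻¹ := by group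
      have einv : g * a⁻¹ * g⁻¹ = (g * a * g⁻¹)⁻¹ := by group
      have emul : ∀ s : G, g * (s * z) * g⁻¹ = (g * s * g⁻¹) * z := by
        intro s
        calc g * (s * z) * g⁻¹ = (g * s * g⁻¹) * (g * z * g⁻¹) := by group
          _ = _ := by rw [hzconj]
      have hzinv : z⁻¹ = z := by rw [inv_eq_iff_mul_eq_one, ← sq, hz2]
      rcases hT g hg with h1 | ⟨hm3, h1⟩ <;> rcases hT x₀ hx₀ with h2 | ⟨hm3', h2⟩
      · apply hmemC'
        rw [e0, h2, einv, h1, inv_inv]
      · exfalso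
        apply hmixed (g * x₀) hm3'
        rw [e0, h2, emul, einv, h1, inv_inv]
      · exfalso
        apply hmixed (g * x₀) hm3
        rw [e0, h2, einv, h1, mul_inv_rev, inv_inv, hzinv, haz.eq]
      · apply hmemC'
        rw [e0, h2, emul, einv, h1, mul_inv_rev, inv_inv, hzinv, haz.symm.eq, mul_assoc, ← sq, hz2,
          mul_one]
  refine ⟨m, a, x₀, hm2, ?_, hm, hx₀, hT x₀ hx₀⟩
  have h1 := (Subgroup.zpowers a).card_mul_index
  rw [hidx, Nat.card_zpowers, hm] at h1
  rw [← h1, pow_succ]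

end Cfsg.Agent.H17.CycNormal
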