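import Mathlib

set_option autoImplicit false

namespace Cfsg.Agent.H17.Mono

theorem step {X : Type*} [Group X] (hX : IsPGroup 2 X) (α : MulAut X) {k : ℕ} (hk : Odd k)
    (hα : α ^ k = 1) (H H' : Set X) (hfix : ∀ h ∈ H, α h = h) (hinv : ∀ x ∈ H', α x ∈ H')
    (hidx : ∀ x ∈ H', ∀ y ∈ H', x ∉ H → y ∉ H → x⁻¹ * y ∈ H) : ∀ x ∈ H', α x = x := by
  intro x hx
  by_cases hxH : x ∈ H
  · exact hfix x hxH
  have hαx : α x ∉ H := by
    intro h
    have e := α.injective (hfix _ h)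
    rw [e] at h
    exact hxH h
  have hc := hidx x hx (α x) (hinv x hx) hxH hαx
  have hαc := hfix _ hc
  set c := x⁻¹ * α x with hcdef
  have hxc : α x = x * c := by rw [hcdef]; group
  have hpow : ∀ j : ℕ, (α ^ j) x = x * c ^ j := by
    intro j
    induction j with
    | zero => simp
    | succ j ih =>
      rw [pow_succ', MulAut.mul_apply, ih, map_mul, map_pow, hαc, hxc, pow_succ', mul_assoc]
  have h1 := hpow k
  rw [hα, MulAut.one_apply] at h1
  have h2 : c ^ k = 1 := by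
    have : x * 1 = x * c ^ k := by rw [mul_one]; exact h1
    exact (mul_left_cancel this).symm
  obtain ⟨n, hn⟩ := hX c
  have h3 := Nat.dvd_gcd (orderOf_dvd_of_pow_eq_one h2) (orderOf_dvd_of_pow_eq_one hn)
  have hcop : Nat.Coprime k (2 ^ n) := (Nat.Coprime.pow_right n hk.coprime_two_right)
  rw [hcop] at h3
  have h4 : c = 1 := orderOf_eq_one_iff.1 (Nat.dvd_one.1 h3)
  rw [hxc, h4, mul_one]

variable {q : ℕ} [Fact q.Prime]

/-- The ambient linear group. -/
abbrev GLV (q : ℕ) := (Fin 2 → ZMod q) ≃ₗ[ZMod q] (Fin 2 → ZMod q)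

/-- Diagonal maps. -/
def IsD (f : GLV q) (a b : ZMod q) : Prop := ∀ v, f v = ![a * v 0, b * v 1]

/-- Antidiagonal maps. -/
def IsW (f : GLV q) (a b : ZMod q) : Prop := ∀ v, f v = ![b * v 1, a * v 0]

variable {f g : GLV q} {a b a' b' : ZMod q}

theorem DD (hf : IsD f a b) (hg : IsD g a' b') : IsD (f * g) (a * a') (b * b') := by
  intro v
  rw [LinearEquiv.mul_apply, hg v, hf]
  simp [mul_assoc]

theorem DW (hf : IsD f a b) (hg : IsW g a' b') : IsW (f * g) (b * a') (a * b') := by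
  intro v
  rw [LinearEquiv.mul_apply, hg v, hf]
  simp [mul_assoc]

theorem WD (hf : IsW f a b) (hg : IsD g a' b') : IsW (f * g) (a * a') (b * b') := by
  intro v
  rw [LinearEquiv.mul_apply, hg v, hf]
  simp [mul_assoc]

theorem WW (hf : IsW f a b) (hg : IsW g a' b') : IsD (f * g) (b * a') (a * b') := by
  intro v
  rw [LinearEquiv.mul_apply, hg v, hf]
  simp [mul_assoc]

theorem D_one : IsD (1 : GLV q) 1 1 := by
  intro v
  ext i
  fin_cases i <;> simp

theorem D_pow (hf : IsD f a b) (n : ℕ) : IsD (f ^ n) (a ^ n) (b ^ n) := by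
  induction n with
  | zero => simpa using D_one
  | succ n ih =>
    rw [pow_succ, pow_succ, pow_succ]
    exact DD ih hf

theorem D_ext (hf : IsD f a b) (hg : IsD g a b) : f = g :=
  LinearEquiv.ext fun v => by rw [hf v, hg v]

theorem W_ext (hf : IsW f a b) (hg : IsW g a b) : f = g :=
  LinearEquiv.ext fun v => by rw [hf v, hg v]

theorem D_inj (hf : IsD f a b) (hg : IsD f a' b') : a = a' ∧ b = b' := by
  have h := (hf ![1, 1]).symm.trans (hg ![1, 1])
  have h0 := congrFun h 0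
  have h1 := congrFun h 1
  simp at h0 h1
  exact ⟨h0, h1⟩

theorem W_inj (hf : IsW f a b) (hg : IsW f a' b') : a = a' ∧ b = b' := by
  have h := (hf ![1, 1]).symm.trans (hg ![1, 1])
  have h0 := congrFun h 0
  have h1 := congrFun h 1
  simp at h0 h1
  exact ⟨h1, h0⟩

theorem DW_excl (hf : IsD f a b) (hg : IsW f a' b') : a = 0 := by
  have h := (hf ![1, 0]).symm.trans (hg ![1, 0])
  have h0 := congrFun h 0
  simp at h0
  exact h0

/-- Constructor for diagonal maps. -/
def mkD (a b : ZMod q) (ha : a ≠ 0) (hb : b ≠ 0) : GLV q where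
  toFun v := ![a * v 0, b * v 1]
  invFun v := ![a⁻¹ * v 0, b⁻¹ * v 1]
  map_add' v w := by ext i; fin_cases i <;> simp [mul_add]
  map_smul' c v := by ext i; fin_cases i <;> simp [mul_left_comm]
  left_inv v := by ext i; fin_cases i <;> simp [ha, hb]
  right_inv v := by ext i; fin_cases i <;> simp [ha, hb]

theorem mkD_isD (a b : ZMod q) (ha : a ≠ 0) (hb : b ≠ 0) : IsD (mkD a b ha hb) a b :=
  fun _ => rfl

/-- Constructor for antidiagonal maps. -/
def mkW (a b : ZMod q) (ha : a ≠ 0) (hb : b ≠ 0) : GLV q where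
  toFun v := ![b * v 1, a * v 0]
  invFun v := ![a⁻¹ * v 1, b⁻¹ * v 0]
  map_add' v w := by ext i; fin_cases i <;> simp [mul_add]
  map_smul' c v := by ext i; fin_cases i <;> simp [mul_left_comm]
  left_inv v := by ext i; fin_cases i <;> simp [ha, hb]
  right_inv v := by ext i; fin_cases i <;> simp [ha, hb]

theorem mkW_isW (a b : ZMod q) (ha : a ≠ 0) (hb : b ≠ 0) : IsW (mkW a b ha hb) a b :=
  fun _ => rfl

/-- The hypotheses on the subgroup `T`, in a convenient form. -/
structure Good (T : Subgroup (GLV q)) : Prop where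
  cases : ∀ f ∈ T, ∃ a b : ZMod q, a ≠ 0 ∧ b ≠ 0 ∧ (a * b = 1 ∨ a * b = -1) ∧
    (IsD f a b ∨ IsW f a b)
  mem : ∀ (f : GLV q) (a b : ZMod q), a ≠ 0 → (a * b = 1 ∨ a * b = -1) →
    (IsD f a b ∨ IsW f a b) → f ∈ T

theorem good_of (T : Subgroup (GLV q))
    (hT : ∀ f, f ∈ T ↔ ∃ a s : ZMod q, a ≠ 0 ∧ (s = 1 ∨ s = -1) ∧
      ((∀ v, f v = ![a * v 0, s * a⁻¹ * v 1]) ∨ (∀ v, f v = ![s * a⁻¹ * v 1, a * v 0]))) :
    Good T := by
  constructor
  · intro f hf
    obtain ⟨a, s, ha, hs, h⟩ := (hT f).1 hf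
    have hs0 : s ≠ 0 := by
      rcases hs with rfl | rfl
      · exact one_ne_zero
      · exact neg_ne_zero.2 one_ne_zero
    refine ⟨a, s * a⁻¹, ha, mul_ne_zero hs0 (inv_ne_zero ha), ?_, h⟩
    have : a * (s * a⁻¹) = s := by field_simp
    rw [this]; exact hs
  · intro f a b ha hab h
    rw [hT]
    refine ⟨a, a * b, ha, hab, ?_⟩
    have : a * b * a⁻¹ = b := by field_simp
    rw [this]; exact h

end Cfsg.Agent.H17.Mono
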