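import Cfsg.Agent.H17.Mono1

set_option autoImplicit false

namespace Cfsg.Agent.H17.Mono

variable {q : ℕ} [Fact q.Prime] {T : Subgroup (GLV q)}

/-- Squares of order at most two. -/
def NN (X : Type*) [Group X] : Set X := {t | (∃ x : X, t = x ^ 2) ∧ t ^ 2 = 1}

/-- The centralizer of all squares. -/
def AA (X : Type*) [Group X] : Subgroup X := Subgroup.centralizer {s | ∃ x : X, s = x ^ 2}

theorem NN_inv {X : Type*} [Group X] (α : MulAut X) {t : X} (ht : t ∈ NN X) : α t ∈ NN X := by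
  obtain ⟨⟨x, hx⟩, h2⟩ := ht
  exact ⟨⟨α x, by rw [hx, map_pow]⟩, by rw [← map_pow, h2, map_one]⟩

theorem AA_inv {X : Type*} [Group X] (α : MulAut X) {t : X} (ht : t ∈ AA X) : α t ∈ AA X := by
  unfold AA at ht ⊢
  rw [Subgroup.mem_centralizer_iff] at ht ⊢
  rintro s ⟨x, rfl⟩
  obtain ⟨x', rfl⟩ := α.surjective x
  rw [← map_pow, ← map_mul, ← map_mul, ht _ ⟨x', rfl⟩]

theorem one_mem_NN {X : Type*} [Group X] : (1 : X) ∈ NN X := ⟨⟨1, by simp⟩, by simp⟩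

theorem eq_one_of_D {t : T} (h : IsD (t : GLV q) 1 1) : t = 1 :=
  Subtype.ext (D_ext h D_one)

theorem D_of_eq_one {t : T} {a b : ZMod q} (h : IsD (t : GLV q) a b) (ht : t = 1) :
    a = 1 ∧ b = 1 := by
  subst ht
  exact D_inj h D_one

theorem Dpow {t : T} {a b : ZMod q} (h : IsD (t : GLV q) a b) (n : ℕ) :
    IsD ((t ^ n : T) : GLV q) (a ^ n) (b ^ n) := by
  rw [Subgroup.coe_pow]; exact D_pow h n

theorem sq_cases {u : ZMod q} (h : u ^ 2 = 1) : u = 1 ∨ u = -1 := by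
  rw [sq] at h
  exact mul_self_eq_one_iff.1 h

theorem ab_sq {a b : ZMod q} (h : a * b = 1 ∨ a * b = -1) : a ^ 2 * b ^ 2 = 1 := by
  rw [← mul_pow]
  rcases h with h | h <;> rw [h] <;> simp

/-- A nonidentity element of `NN` is `-1`. -/
theorem NN_D (hT : Good T) {t : T} (ht : t ∈ NN T) (h1 : t ≠ 1) : IsD (t : GLV q) (-1) (-1) := by
  obtain ⟨⟨x, rfl⟩, h2⟩ := ht
  obtain ⟨a, b, ha, hb, hab, h | h⟩ := hT.cases x x.2
  · have hD := Dpow h 2
    have hD2 := D_of_eq_one (Dpow hD 2) h2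
    have h3 := ab_sq hab
    rcases sq_cases hD2.1 with h4 | h4
    · exfalso
      apply h1
      rw [h4, one_mul] at h3
      rw [h4, h3] at hD
      exact eq_one_of_D hD
    · rw [h4] at h3
      have h5 : b ^ 2 = -1 := by
        have : -(b ^ 2) = 1 := by simpa using h3
        rw [← this, neg_neg]
      rw [h4, h5] at hD
      exact hD
  · have hD : IsD ((x ^ 2 : T) : GLV q) (b * a) (a * b) := by
      rw [sq]; exact WW h h
    rw [mul_comm b a] at hD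
    rcases hab with h4 | h4
    · exfalso
      apply h1
      rw [h4] at hD
      exact eq_one_of_D hD
    · rw [h4] at hD
      exact hD

theorem neg_one_mem (hT : Good T) : ∃ z : T, z ∈ NN T ∧ IsD (z : GLV q) (-1) (-1) := by
  have h1 : (1 : ZMod q) ≠ 0 := one_ne_zero
  have h2 : (-1 : ZMod q) ≠ 0 := neg_ne_zero.2 one_ne_zero
  have hw := mkW_isW (1 : ZMod q) (-1) h1 h2
  have hmem : mkW (1 : ZMod q) (-1) h1 h2 ∈ T :=
    hT.mem _ 1 (-1) h1 (Or.inr (by simp)) (Or.inr hw)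
  have hD : IsD (((⟨_, hmem⟩ : T) ^ 2 : T) : GLV q) (-1) (-1) := by
    rw [sq]
    have := WW hw hw
    simpa using this
  refine ⟨(⟨_, hmem⟩ : T) ^ 2, ⟨⟨_, rfl⟩, ?_⟩, hD⟩
  apply eq_one_of_D
  have := Dpow hD 2
  simpa using this

theorem mem_NN_of_D (hT : Good T) {t : T} {u w : ZMod q} (h : IsD (t : GLV q) u w)
    (hu : u ^ 2 = 1) (huw : u * w = 1) : t ∈ NN T := by
  rcases sq_cases hu with rfl | rfl
  · rw [one_mul] at huw
    subst huw
    rw [eq_one_of_D h]; exact one_mem_NN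
  · have hw : w = -1 := by
      have : -w = 1 := by simpa using huw
      rw [← this, neg_neg]
    subst hw
    obtain ⟨z, hz, hzD⟩ := neg_one_mem hT
    have : t = z := Subtype.ext (D_ext h hzD)
    rw [this]; exact hz

theorem fix_NN (hT : Good T) (α : MulAut T) : ∀ t ∈ NN T, α t = t := by
  intro t ht
  by_cases h1 : t = 1
  · rw [h1, map_one]
  · have h2 : α t ≠ 1 := by
      intro h
      apply h1
      apply α.injective
      rw [h, map_one]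
    exact Subtype.ext (D_ext (NN_D hT (NN_inv α ht) h2) (NN_D hT ht h1))

theorem isPGroup_T (hT : Good T) {m : ℕ} (hexp : ∀ a : ZMod q, a ≠ 0 → a ^ 2 ^ m = 1) :
    IsPGroup 2 T := by
  intro t
  refine ⟨m + 1, ?_⟩
  obtain ⟨a, b, ha, hb, hab, h | h⟩ := hT.cases t t.2
  · have := Dpow h (2 ^ m)
    rw [hexp a ha, hexp b hb] at this
    rw [pow_succ, pow_mul, eq_one_of_D this, one_pow]
  · have hD : IsD ((t ^ 2 : T) : GLV q) (b * a) (a * b) := by
      rw [sq]; exact WW h h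
    have := Dpow hD (2 ^ m)
    rw [hexp _ (mul_ne_zero hb ha), hexp _ (mul_ne_zero ha hb)] at this
    rw [pow_succ', pow_mul, eq_one_of_D this]

theorem sq_isD (hT : Good T) (x : T) : ∃ u w : ZMod q, IsD ((x ^ 2 : T) : GLV q) u w := by
  obtain ⟨a, b, ha, hb, hab, h | h⟩ := hT.cases x x.2
  · exact ⟨_, _, Dpow h 2⟩
  · exact ⟨_, _, by rw [sq]; exact WW h h⟩

theorem D_comm {t t' : T} {a b a' b' : ZMod q} (h : IsD (t : GLV q) a b)
    (h' : IsD (t' : GLV q) a' b') : t * t' = t' * t := by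
  apply Subtype.ext
  have h1 : IsD ((t * t' : T) : GLV q) (a * a') (b * b') := DD h h'
  have h2 : IsD ((t' * t : T) : GLV q) (a' * a) (b' * b) := DD h' h
  rw [mul_comm a' a, mul_comm b' b] at h2
  exact D_ext h1 h2

theorem mem_AA_of_D (hT : Good T) {t : T} {a b : ZMod q} (h : IsD (t : GLV q) a b) :
    t ∈ AA T := by
  unfold AA
  rw [Subgroup.mem_centralizer_iff]
  rintro s ⟨x, rfl⟩
  obtain ⟨u, w, hx⟩ := sq_isD hT x
  exact D_comm hx h

theorem D_of_mem_AA (hT : Good T) (h2 : (2 : ZMod q) ≠ 0) (h16 : (2 : ZMod q) ^ 4 ≠ 1)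
    {t : T} (ht : t ∈ AA T) :
    ∃ a b : ZMod q, a ≠ 0 ∧ b ≠ 0 ∧ (a * b = 1 ∨ a * b = -1) ∧ IsD (t : GLV q) a b := by
  obtain ⟨a, b, ha, hb, hab, h | h⟩ := hT.cases t t.2
  · exact ⟨a, b, ha, hb, hab, h⟩
  · exfalso
    have hi : (2 : ZMod q)⁻¹ ≠ 0 := inv_ne_zero h2
    have hd := mkD_isD (2 : ZMod q) 2⁻¹ h2 hi
    have hmem : mkD (2 : ZMod q) 2⁻¹ h2 hi ∈ T :=
      hT.mem _ 2 2⁻¹ h2 (Or.inl (mul_inv_cancel₀ h2)) (Or.inl hd)
    unfold AA at ht
    rw [Subgroup.mem_centralizer_iff] at ht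
    have h3 := ht _ ⟨(⟨_, hmem⟩ : T), rfl⟩
    have hx : IsD (((⟨_, hmem⟩ : T) ^ 2 : T) : GLV q) (2 ^ 2) (2⁻¹ ^ 2) :=
      Dpow (t := (⟨_, hmem⟩ : T)) hd 2
    have e1 : IsW ((((⟨_, hmem⟩ : T) ^ 2 : T) * t : T) : GLV q) (2⁻¹ ^ 2 * a) (2 ^ 2 * b) :=
      DW hx h
    have e2 : IsW ((t * ((⟨_, hmem⟩ : T) ^ 2 : T) : T) : GLV q) (a * 2 ^ 2) (b * 2⁻¹ ^ 2) :=
      WD h hx
    rw [h3] at e1
    have e3 := (W_inj e1 e2).2
    apply h16
    have e4 : (2 : ZMod q) ^ 2 * b * 2 ^ 2 = b * 2⁻¹ ^ 2 * 2 ^ 2 := by rw [e3]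
    have e5 : b * (2 : ZMod q)⁻¹ ^ 2 * 2 ^ 2 = b := by field_simp
    rw [e5] at e4
    have e6 : b * (2 : ZMod q) ^ 4 = b * 1 := by
      rw [mul_one]
      calc b * (2 : ZMod q) ^ 4 = 2 ^ 2 * b * 2 ^ 2 := by ring
        _ = b := e4
    exact mul_left_cancel₀ hb e6

end Cfsg.Agent.H17.Mono
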