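import Cfsg.Agent.H17.Mono2

set_option autoImplicit false

namespace Cfsg.Agent.H17.Mono

variable {q : ℕ} [Fact q.Prime] {T : Subgroup (GLV q)}

/-- The layers of `AA`. -/
def OO (X : Type*) [Group X] (k : ℕ) : Set X := {t | t ∈ AA X ∧ t ^ 2 ^ k = 1}

theorem OO_inv {X : Type*} [Group X] (α : MulAut X) {k : ℕ} {t : X} (ht : t ∈ OO X k) :
    α t ∈ OO X k :=
  ⟨AA_inv α ht.1, by rw [← map_pow, ht.2, map_one]⟩

section big

variable (hT : Good T) (h2 : (2 : ZMod q) ≠ 0) (h16 : (2 : ZMod q) ^ 4 ≠ 1)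

include hT h2 h16

theorem idx1 : ∀ x ∈ OO T 1, ∀ y ∈ OO T 1, x ∉ NN T → y ∉ NN T → x⁻¹ * y ∈ NN T := by
  have key : ∀ x ∈ OO T 1, x ∉ NN T → ∃ a b : ZMod q, IsD (x : GLV q) a b ∧ a ^ 2 = 1 ∧
      b ^ 2 = 1 ∧ a * b = -1 := by
    intro x hx hxN
    obtain ⟨a, b, ha, hb, hab, h⟩ := D_of_mem_AA hT h2 h16 hx.1
    have h3 := hx.2
    rw [pow_one] at h3
    have h4 := D_of_eq_one (Dpow h 2) h3
    refine ⟨a, b, h, h4.1, h4.2, ?_⟩
    rcases hab with hab | hab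
    · exact absurd (mem_NN_of_D hT h h4.1 hab) hxN
    · exact hab
  intro x hx y hy hxN hyN
  obtain ⟨a, b, hD, ha, hb, hab⟩ := key x hx hxN
  obtain ⟨a', b', hD', ha', hb', hab'⟩ := key y hy hyN
  have hxx : x⁻¹ = x := by
    apply inv_eq_of_mul_eq_one_left
    have := hx.2
    rwa [pow_one, sq] at this
  rw [hxx]
  have h5 : IsD ((x * y : T) : GLV q) (a * a') (b * b') := DD hD hD'
  apply mem_NN_of_D hT h5
  · rw [mul_pow, ha, ha', one_mul]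
  · calc a * a' * (b * b') = (a * b) * (a' * b') := by ring
      _ = 1 := by rw [hab, hab']; simp

theorem top_layer {k : ℕ} (hk : 1 ≤ k) {x : T} (hx : x ∈ OO T (k + 1)) (hx' : x ∉ OO T k) :
    IsD ((x ^ 2 ^ k : T) : GLV q) (-1) (-1) := by
  obtain ⟨a, b, ha, hb, hab, h⟩ := D_of_mem_AA hT h2 h16 hx.1
  have hD := Dpow h (2 ^ k)
  have h3 := D_of_eq_one (Dpow h (2 ^ (k + 1))) hx.2
  have hu2 : (a ^ 2 ^ k) ^ 2 = 1 := by rw [← pow_mul, ← pow_succ]; exact h3.1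
  have huw : a ^ 2 ^ k * b ^ 2 ^ k = 1 := by
    have e : 2 ^ k = 2 * 2 ^ (k - 1) := by
      have : k = (k - 1) + 1 := by omega
      conv_lhs => rw [this, pow_succ']
    rw [e, pow_mul, pow_mul, ← mul_pow, ab_sq hab, one_pow]
  rcases sq_cases hu2 with h4 | h4
  · exfalso
    apply hx'
    refine ⟨hx.1, ?_⟩
    rw [h4, one_mul] at huw
    rw [h4, huw] at hD
    exact eq_one_of_D hD
  · rw [h4] at huw
    have h5 : b ^ 2 ^ k = -1 := by
      have : -(b ^ 2 ^ k) = 1 := by simpa using huw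
      rw [← this, neg_neg]
    rw [h4, h5] at hD
    exact hD

theorem idx2 {k : ℕ} (hk : 1 ≤ k) : ∀ x ∈ OO T (k + 1), ∀ y ∈ OO T (k + 1),
    x ∉ OO T k → y ∉ OO T k → x⁻¹ * y ∈ OO T k := by
  intro x hx y hy hx' hy'
  refine ⟨mul_mem (inv_mem hx.1) hy.1, ?_⟩
  have h3 : x ^ 2 ^ k = y ^ 2 ^ k :=
    Subtype.ext (D_ext (top_layer hT h2 h16 hk hx hx') (top_layer hT h2 h16 hk hy hy'))
  obtain ⟨a, b, -, -, -, h⟩ := D_of_mem_AA hT h2 h16 hx.1
  obtain ⟨a', b', -, -, -, h'⟩ := D_of_mem_AA hT h2 h16 hy.1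
  have hc : Commute x y := D_comm h h'
  rw [hc.inv_left.mul_pow, inv_pow, h3, inv_mul_cancel]

theorem idx3 : ∀ x ∈ (Set.univ : Set T), ∀ y ∈ (Set.univ : Set T),
    x ∉ (AA T : Set T) → y ∉ (AA T : Set T) → x⁻¹ * y ∈ (AA T : Set T) := by
  intro x _ y _ hx hy
  obtain ⟨a, b, ha, hb, hab, h | h⟩ := hT.cases x x.2
  · exact absurd (mem_AA_of_D hT h) hx
  obtain ⟨a', b', ha', hb', hab', h' | h'⟩ := hT.cases y y.2
  · exact absurd (mem_AA_of_D hT h') hy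
  obtain ⟨a'', b'', ha'', hb'', hab'', h'' | h''⟩ := hT.cases (x⁻¹ * y) (x⁻¹ * y).2
  · exact mem_AA_of_D hT h''
  · exfalso
    have h5 : IsD ((x * (x⁻¹ * y) : T) : GLV q) (b * a'') (a * b'') := WW h h''
    rw [mul_inv_cancel_left] at h5
    exact mul_ne_zero hb ha'' (DW_excl h5 h')

theorem big {m : ℕ} (hexp : ∀ a : ZMod q, a ≠ 0 → a ^ 2 ^ m = 1) (α : MulAut T) {k : ℕ}
    (hk : Odd k) (hα : α ^ k = 1) : α = 1 := by
  have hX := isPGroup_T hT hexp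
  have f0 := fix_NN hT α
  have f1 : ∀ t ∈ OO T 1, α t = t :=
    step hX α hk hα (NN T) (OO T 1) f0 (fun x hx => OO_inv α hx) (idx1 hT h2 h16)
  have f2 : ∀ j : ℕ, ∀ t ∈ OO T (j + 1), α t = t := by
    intro j
    induction j with
    | zero => exact f1
    | succ j ih =>
      exact step hX α hk hα (OO T (j + 1)) (OO T (j + 1 + 1)) ih (fun x hx => OO_inv α hx)
        (idx2 hT h2 h16 (by omega))
  have f3 : ∀ t ∈ (AA T : Set T), α t = t := by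
    intro t ht
    apply f2 m
    refine ⟨ht, ?_⟩
    obtain ⟨a, b, ha, hb, -, h⟩ := D_of_mem_AA hT h2 h16 ht
    have := Dpow h (2 ^ m)
    rw [hexp a ha, hexp b hb] at this
    rw [pow_succ, pow_mul, eq_one_of_D this, one_pow]
  have f4 := step hX α hk hα (AA T : Set T) Set.univ f3 (fun x _ => Set.mem_univ _)
    (idx3 hT h2 h16)
  ext t
  rw [f4 t (Set.mem_univ _)]
  rfl

end big

end Cfsg.Agent.H17.Mono
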