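import Cfsg.Agent.H17.Mono3

set_option autoImplicit false

namespace Cfsg.Agent.H17.Mono

variable {q : ℕ} [Fact q.Prime] {T : Subgroup (GLV q)}

theorem small2 (hT : Good T) (hall : ∀ a : ZMod q, a ≠ 0 → a = 1) (α : MulAut T) : α = 1 := by
  have key : ∀ t : T, t ≠ 1 → IsW (t : GLV q) 1 1 := by
    intro t ht
    obtain ⟨a, b, ha, hb, -, h | h⟩ := hT.cases t t.2
    · rw [hall a ha, hall b hb] at h
      exact absurd (eq_one_of_D h) ht
    · rw [hall a ha, hall b hb] at h
      exact h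
  ext t
  by_cases h1 : t = 1
  · rw [h1, map_one]; rfl
  · have h2 : α t ≠ 1 := by
      intro h
      apply h1
      apply α.injective
      rw [h, map_one]
    rw [show α t = t from Subtype.ext (W_ext (key _ h2) (key _ h1))]
    rfl

/-- The cyclic subgroup of order four when `q = 3`. -/
def CC (X : Type*) [Group X] : Set X := {t | t ∈ NN X ∨ t ^ 2 ≠ 1}

theorem CC_inv {X : Type*} [Group X] (α : MulAut X) {t : X} (ht : t ∈ CC X) : α t ∈ CC X := by
  rcases ht with ht | ht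
  · exact Or.inl (NN_inv α ht)
  · refine Or.inr fun h => ht ?_
    apply α.injective
    rw [map_pow, h, map_one]

section three

variable (hT : Good T) (hsq : ∀ a : ZMod q, a ≠ 0 → a ^ 2 = 1) (hne : (-1 : ZMod q) ≠ 1)

include hT hsq hne

theorem W_sq_ne {c : T} {u w : ZMod q} (h : IsW (c : GLV q) u w) (huw : u * w = -1) :
    c ^ 2 ≠ 1 := by
  intro h1
  have hD : IsD ((c ^ 2 : T) : GLV q) (w * u) (u * w) := by
    rw [sq]; exact WW h h
  have := (D_of_eq_one hD h1).2
  rw [huw] at this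
  exact hne this

theorem idxC1 : ∀ x ∈ CC T, ∀ y ∈ CC T, x ∉ NN T → y ∉ NN T → x⁻¹ * y ∈ NN T := by
  have key : ∀ x ∈ CC T, x ∉ NN T → ∃ a b : ZMod q, a ≠ 0 ∧ b ≠ 0 ∧ IsW (x : GLV q) a b ∧
      a * b = -1 := by
    intro x hx hxN
    have hx2 : x ^ 2 ≠ 1 := by
      rcases hx with hx | hx
      · exact absurd hx hxN
      · exact hx
    obtain ⟨a, b, ha, hb, hab, h | h⟩ := hT.cases x x.2
    · exfalso
      apply hx2
      have := Dpow h 2
      rw [hsq a ha, hsq b hb] at this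
      exact eq_one_of_D this
    · refine ⟨a, b, ha, hb, h, ?_⟩
      rcases hab with hab | hab
      · exfalso
        apply hx2
        have hD : IsD ((x ^ 2 : T) : GLV q) (b * a) (a * b) := by
          rw [sq]; exact WW h h
        rw [mul_comm b a, hab] at hD
        exact eq_one_of_D hD
      · exact hab
  intro x hx y hy hxN hyN
  obtain ⟨a, b, ha, hb, h, hab⟩ := key x hx hxN
  obtain ⟨a', b', ha', hb', h', hab'⟩ := key y hy hyN
  obtain ⟨a'', b'', ha'', hb'', hab'', h'' | h''⟩ := hT.cases (x⁻¹ * y) (x⁻¹ * y).2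
  · have h5 : IsW ((x * (x⁻¹ * y) : T) : GLV q) (a * a'') (b * b'') := WD h h''
    rw [mul_inv_cancel_left] at h5
    obtain ⟨e1, e2⟩ := W_inj h5 h'
    apply mem_NN_of_D hT h'' (hsq _ ha'')
    have e3 : (a * b) * (a'' * b'') = a' * b' := by
      rw [← e1, ← e2]; ring
    rw [hab, hab'] at e3
    have : -(a'' * b'') = -1 := by simpa using e3
    exact neg_injective this
  · exfalso
    have h5 : IsD ((x * (x⁻¹ * y) : T) : GLV q) (b * a'') (a * b'') := WW h h''
    rw [mul_inv_cancel_left] at h5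
    exact mul_ne_zero hb ha'' (DW_excl h5 h')

theorem idxC2 : ∀ x ∈ (Set.univ : Set T), ∀ y ∈ (Set.univ : Set T),
    x ∉ CC T → y ∉ CC T → x⁻¹ * y ∈ CC T := by
  have key : ∀ x : T, x ∉ CC T → x ^ 2 = 1 ∧ ∃ a b : ZMod q, a ≠ 0 ∧ b ≠ 0 ∧
      ((IsD (x : GLV q) a b ∧ a * b = -1) ∨ (IsW (x : GLV q) a b ∧ a * b = 1)) := by
    intro x hx
    have hxN : x ∉ NN T := fun h => hx (Or.inl h)
    have hx2 : x ^ 2 = 1 := by
      by_contra h
      exact hx (Or.inr h)
    refine ⟨hx2, ?_⟩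
    obtain ⟨a, b, ha, hb, hab, h | h⟩ := hT.cases x x.2
    · refine ⟨a, b, ha, hb, Or.inl ⟨h, ?_⟩⟩
      rcases hab with hab | hab
      · exact absurd (mem_NN_of_D hT h (hsq a ha) hab) hxN
      · exact hab
    · refine ⟨a, b, ha, hb, Or.inr ⟨h, ?_⟩⟩
      have hD : IsD ((x ^ 2 : T) : GLV q) (b * a) (a * b) := by
        rw [sq]; exact WW h h
      exact (D_of_eq_one hD hx2).2
  intro x _ y _ hx hy
  obtain ⟨hx2, a, b, ha, hb, hx3⟩ := key x hx
  obtain ⟨hy2, a', b', ha', hb', hy3⟩ := key y hy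
  have hxx : x⁻¹ = x := by
    apply inv_eq_of_mul_eq_one_left
    rwa [sq] at hx2
  rw [hxx]
  rcases hx3 with ⟨h, hab⟩ | ⟨h, hab⟩ <;> rcases hy3 with ⟨h', hab'⟩ | ⟨h', hab'⟩
  · left
    have h5 : IsD ((x * y : T) : GLV q) (a * a') (b * b') := DD h h'
    apply mem_NN_of_D hT h5 (hsq _ (mul_ne_zero ha ha'))
    calc a * a' * (b * b') = (a * b) * (a' * b') := by ring
      _ = 1 := by rw [hab, hab']; simp
  · right
    have h5 : IsW ((x * y : T) : GLV q) (b * a') (a * b') := DW h h'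
    apply W_sq_ne hT hsq hne h5
    calc b * a' * (a * b') = (a * b) * (a' * b') := by ring
      _ = -1 := by rw [hab, hab']; simp
  · right
    have h5 : IsW ((x * y : T) : GLV q) (a * a') (b * b') := WD h h'
    apply W_sq_ne hT hsq hne h5
    calc a * a' * (b * b') = (a * b) * (a' * b') := by ring
      _ = -1 := by rw [hab, hab']; simp
  · left
    have h5 : IsD ((x * y : T) : GLV q) (b * a') (a * b') := WW h h'
    apply mem_NN_of_D hT h5 (hsq _ (mul_ne_zero hb ha'))
    calc b * a' * (a * b') = (a * b) * (a' * b') := by ring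
      _ = 1 := by rw [hab, hab']; simp

theorem small3 (α : MulAut T) {k : ℕ} (hk : Odd k) (hα : α ^ k = 1) : α = 1 := by
  have hX : IsPGroup 2 T := isPGroup_T (m := 1) hT (fun a ha => by rw [pow_one]; exact hsq a ha)
  have f0 := fix_NN hT α
  have f1 : ∀ t ∈ CC T, α t = t :=
    step hX α hk hα (NN T) (CC T) f0 (fun x hx => CC_inv α hx) (idxC1 hT hsq hne)
  have f2 := step hX α hk hα (CC T) Set.univ f1 (fun x _ => Set.mem_univ _)
    (idxC2 hT hsq hne)
  ext t
  rw [f2 t (Set.mem_univ _)]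
  rfl

end three

end Cfsg.Agent.H17.Mono
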