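import Cfsg.Agent.S1005
import Cfsg.Agent.Lib.Helper8.O168b

set_option autoImplicit false

namespace Cfsg.Agent.H17.O168C

variable {G : Type*} [Group G] [Finite G] [IsSimpleGroup G]

theorem no_comm23 (h : Nat.card G = 168) (z x : G) (hz : orderOf z = 2) (hx : orderOf x = 3)
    (hc : Commute z x) : False := by
  have := hc.orderOf_mul_eq_mul_orderOf_of_coprime (by rw [hz, hx]; decide)
  rw [hz, hx] at this
  rcases (Cfsg.Agent.S1005.result h).1 (z * x) with h1 | h1 | h1 | h1 | h1 <;> omega

theorem card_dvd24 (h : Nat.card G = 168) (M : Subgroup G) (h7 : ¬ 7 ∣ Nat.card M) :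
    Nat.card M ∣ 24 := by
  have h1 : Nat.card M ∣ 7 * 24 := by
    have := Subgroup.card_subgroup_dvd_card M
    rw [h] at this; exact this
  have hc : Nat.Coprime (Nat.card M) 7 :=
    ((Nat.Prime.coprime_iff_not_dvd (by norm_num)).2 h7).symm
  exact hc.dvd_of_dvd_mul_left h1

theorem n3_eq (h : Nat.card G = 168) (M : Subgroup G) (h7 : ¬ 7 ∣ Nat.card M)
    (hn : Nat.card (Sylow 3 M) ≠ 1) : Nat.card (Sylow 3 M) = 4 := by
  haveI : Fact (Nat.Prime 3) := ⟨by norm_num⟩
  have h24 := card_dvd24 h M h7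
  have h1 : Nat.card (Sylow 3 M) ≡ 1 [MOD 3] := card_sylow_modEq_one 3 M
  obtain ⟨P⟩ : Nonempty (Sylow 3 M) := inferInstance
  have h2 : Nat.card (Sylow 3 M) ∣ 24 :=
    ((Sylow.card_dvd_index P).trans (Subgroup.index_dvd_card _)).trans h24
  have h3 : Nat.card (Sylow 3 M) ≤ 24 := Nat.le_of_dvd (by norm_num) h2
  unfold Nat.ModEq at h1
  generalize Nat.card (Sylow 3 M) = n at *
  interval_cases n <;> omega

theorem cardM (h : Nat.card G = 168) (M : Subgroup G) (h7 : ¬ 7 ∣ Nat.card M)
    (h3 : 3 ∣ Nat.card M) (hn : Nat.card (Sylow 3 M) ≠ 1) :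
    Nat.card M = 12 ∨ Nat.card M = 24 := by
  haveI : Fact (Nat.Prime 3) := ⟨by norm_num⟩
  have h24 := card_dvd24 h M h7
  have h4 := n3_eq h M h7 hn
  obtain ⟨P⟩ : Nonempty (Sylow 3 M) := inferInstance
  have h2 : 4 ∣ Nat.card M := h4 ▸ ((Sylow.card_dvd_index P).trans (Subgroup.index_dvd_card _))
  have h5 : Nat.card M ≤ 24 := Nat.le_of_dvd (by norm_num) h24
  generalize Nat.card M = n at *
  interval_cases n <;> omega

theorem cardP (h : Nat.card G = 168) (M : Subgroup G) (h7 : ¬ 7 ∣ Nat.card M)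
    (h3 : 3 ∣ Nat.card M) (P : Sylow 3 M) : Nat.card (P : Subgroup M) = 3 := by
  haveI : Fact (Nat.Prime 3) := ⟨by norm_num⟩
  have h24 := card_dvd24 h M h7
  obtain ⟨k, hk⟩ := IsPGroup.iff_card.1 P.isPGroup'
  have h1 : Nat.card (P : Subgroup M) ∣ 24 := (Subgroup.card_subgroup_dvd_card _).trans h24
  have h2 := P.not_dvd_index
  have h4 : Nat.card (P : Subgroup M) * (P : Subgroup M).index = Nat.card M :=
    Subgroup.card_mul_index _
  rcases k with _ | _ | k
  · exfalso
    rw [hk] at h4
    simp only [pow_zero, one_mul] at h4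
    exact h2 (h4 ▸ h3)
  · simpa using hk
  · exfalso
    rw [hk] at h1
    have : 9 ∣ 24 := (Dvd.intro_left (3 ^ k) (by ring)).trans h1
    omega

theorem case12 (h : Nat.card G = 168) (M : Subgroup G) (hM : IsCoatom M)
    (h7 : ¬ 7 ∣ Nat.card M) (hn : Nat.card (Sylow 3 M) ≠ 1) (h12 : Nat.card M = 12) : False := by
  haveI : Fact (Nat.Prime 3) := ⟨by norm_num⟩
  haveI : Fact (Nat.Prime 2) := ⟨by norm_num⟩
  have h3 : 3 ∣ Nat.card M := by rw [h12]; decide
  have h4 := n3_eq h M h7 hn
  obtain ⟨P⟩ : Nonempty (Sylow 3 M) := inferInstance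
  have hP := cardP h M h7 h3 P
  have hN : Nat.card (Subgroup.normalizer ((P : Subgroup M) : Set M)) = 3 := by
    have e1 : Nat.card (Sylow 3 M) = (Subgroup.normalizer ((P : Subgroup M) : Set M)).index :=
      P.card_eq_index_normalizer
    have e2 := Subgroup.card_mul_index (Subgroup.normalizer ((P : Subgroup M) : Set M))
    rw [← e1, h4, h12] at e2
    omega
  have hNP : Subgroup.normalizer ((P : Subgroup M) : Set M) = P :=
    (Subgroup.eq_of_le_of_card_ge Subgroup.le_normalizer (by rw [hN, hP])).symm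
  have hcyc : IsCyclic (P : Subgroup M) := isCyclic_of_prime_card hP
  have hle : Subgroup.normalizer ((P : Subgroup M) : Set M) ≤
      Subgroup.centralizer ((P : Subgroup M) : Set M) := by
    rw [hNP]
    intro a ha b hb
    have := (IsCyclic.commGroup (α := (P : Subgroup M))).mul_comm ⟨b, hb⟩ ⟨a, ha⟩
    exact congrArg Subtype.val this
  have hc := MonoidHom.ker_transferSylow_isComplement' P hle
  set K := (MonoidHom.transferSylow P hle).ker with hKdef
  have hKn : K.Normal := MonoidHom.normal_ker _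
  have hK : Nat.card K = 4 := by
    have := hc.card_mul_card
    rw [hP, h12] at this
    omega
  set Q : Subgroup G := K.map M.subtype with hQdef
  have hQ : Nat.card Q = 4 := by
    rw [hQdef, Subgroup.card_map_of_injective M.subtype_injective, hK]
  have hMN : M ≤ Subgroup.normalizer (Q : Set G) := by
    have := Subgroup.le_normalizer_map (H := K) M.subtype
    rw [Subgroup.normalizer_eq_top_iff.2 hKn] at this
    intro m hm
    exact this ⟨⟨m, hm⟩, Subgroup.mem_top _, rfl⟩
  obtain ⟨T, hT⟩ := (IsPGroup.of_card (p := 2) (n := 2) (by rw [hQ]; norm_num)).exists_le_sylow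
  have hT8 : Nat.card (T : Subgroup G) = 8 := Cfsg.Agent.Lib.Helper8.O168.card8 h T
  have hTN := Cfsg.Agent.Lib.Helper8.O168.le_normalizer_of_card hT hQ hT8
  rcases hM.le_iff.1 hMN with e | e
  · have hQn : Q.Normal := Subgroup.normalizer_eq_top_iff.1 e
    rcases hQn.eq_bot_or_eq_top with e' | e'
    · rw [e'] at hQ; simp at hQ
    · rw [e'] at hQ; simp [h] at hQ
  · rw [e] at hTN
    have := Subgroup.card_dvd_of_le hTN
    rw [hT8, h12] at this
    omega

theorem case24 (h : Nat.card G = 168) (M : Subgroup G)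
    (h7 : ¬ 7 ∣ Nat.card M) (hn : Nat.card (Sylow 3 M) ≠ 1) (h24 : Nat.card M = 24) :
    Nonempty (M ≃* Equiv.Perm (Fin 4)) := by
  haveI : Fact (Nat.Prime 3) := ⟨by norm_num⟩
  haveI : Fact (Nat.Prime 2) := ⟨by norm_num⟩
  have h3 : 3 ∣ Nat.card M := by rw [h24]; decide
  have h4 := n3_eq h M h7 hn
  have hN : ∀ P : Sylow 3 M, Nat.card (Subgroup.normalizer ((P : Subgroup M) : Set M)) = 6 := by
    intro P
    have e1 : Nat.card (Sylow 3 M) = (Subgroup.normalizer ((P : Subgroup M) : Set M)).index :=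
      P.card_eq_index_normalizer
    have e2 := Subgroup.card_mul_index (Subgroup.normalizer ((P : Subgroup M) : Set M))
    rw [← e1, h4, h24] at e2
    omega
  set φ := MulAction.toPermHom M (Sylow 3 M) with hφ
  set K := φ.ker with hKdef
  have hKn : K.Normal := MonoidHom.normal_ker _
  have hKmem : ∀ m ∈ K, ∀ P : Sylow 3 M, m ∈ Subgroup.normalizer ((P : Subgroup M) : Set M) := by
    intro m hm P
    have : φ m = 1 := hm
    have h1 : m • P = P := by
      have := congrArg (fun f => f P) this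
      simpa [hφ] using this
    exact Sylow.smul_eq_iff_mem_normalizer.1 h1
  -- no element of order 3 in K
  have hno3 : ∀ y ∈ K, orderOf y ≠ 3 := by
    intro y hy ho
    have hz : Nat.card (Subgroup.zpowers y) = 3 := by rw [Nat.card_zpowers, ho]
    have hpz : IsPGroup 3 (Subgroup.zpowers y) := IsPGroup.of_card (n := 1) (by rw [hz]; norm_num)
    have hall : ∀ P : Sylow 3 M, (P : Subgroup M) = Subgroup.zpowers y := by
      intro P
      have e := hpz.inf_normalizer_sylow P
      have hyP : y ∈ (P : Subgroup M) := by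
        have : y ∈ Subgroup.zpowers y ⊓ Subgroup.normalizer ((P : Subgroup M) : Set M) :=
          ⟨Subgroup.mem_zpowers y, hKmem y hy P⟩
        have h2 : y ∈ Subgroup.zpowers y ⊓ (P : Subgroup M) := e ▸ this
        exact h2.2
      exact (Subgroup.eq_of_le_of_card_ge ((Subgroup.zpowers_le).2 hyP)
        (by rw [hz, cardP h M h7 h3 P])).symm
    have : Subsingleton (Sylow 3 M) := ⟨fun P Q => Sylow.ext ((hall P).trans (hall Q).symm)⟩
    have := Finite.card_le_one_iff_subsingleton.2 this
    omega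
  obtain ⟨P⟩ : Nonempty (Sylow 3 M) := inferInstance
  have hK6 : Nat.card K ∣ 6 := (hN P) ▸ Subgroup.card_dvd_of_le (fun m hm => hKmem m hm P)
  have hK3 : ¬ 3 ∣ Nat.card K := by
    intro hd
    obtain ⟨y, hy⟩ := exists_prime_orderOf_dvd_card' 3 hd
    exact hno3 y y.2 (by rw [← hy, Subgroup.orderOf_coe])
  have hK12 : Nat.card K = 1 ∨ Nat.card K = 2 := by
    have := Nat.le_of_dvd (by norm_num) hK6
    generalize Nat.card K = n at *
    interval_cases n <;> omega
  have hKbot : K = ⊥ := by
    rcases hK12 with e | e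
    · exact Subgroup.card_eq_one.1 e
    · exfalso
      obtain ⟨z, hz⟩ := exists_prime_orderOf_dvd_card' 2 (by rw [e])
      obtain ⟨x, hx⟩ := exists_prime_orderOf_dvd_card' 3 h3
      obtain ⟨b, hb1, hb2⟩ := (Nat.card_eq_two_iff' (1 : K)).1 e
      have hz1 : z ≠ 1 := by
        rintro rfl
        simp at hz
      have hconj : (⟨x * z * x⁻¹, hKn.conj_mem z z.2 x⟩ : K) ≠ 1 := by
        intro hc
        have : x * (z : M) * x⁻¹ = 1 := congrArg Subtype.val hc
        apply hz1
        apply Subtype.ext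
        have h5 : (z : M) = x⁻¹ * (x * (z : M) * x⁻¹) * x := by group
        rw [h5, this]; simp
      have e1 := hb2 _ hz1
      have e2 := hb2 _ hconj
      have e3 : x * (z : M) * x⁻¹ = (z : M) := congrArg Subtype.val (e2.trans e1.symm)
      have hcomm : Commute ((z : M) : G) (x : G) := by
        have : x * (z : M) = (z : M) * x := by
          calc x * (z : M) = (x * (z : M) * x⁻¹) * x := by group
            _ = (z : M) * x := by rw [e3]
        exact (congrArg Subtype.val this).symm
      exact no_comm23 h ((z : M) : G) (x : G)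
        (by rw [Subgroup.orderOf_coe, Subgroup.orderOf_coe, hz]) (by rw [Subgroup.orderOf_coe, hx]) hcomm
  have hinj : Function.Injective φ := (MonoidHom.ker_eq_bot_iff φ).1 hKbot
  have e : Sylow 3 M ≃ Fin 4 := Finite.equivFinOfCardEq h4
  have hcard : Nat.card M = Nat.card (Equiv.Perm (Sylow 3 M)) := by
    rw [h24, Nat.card_congr (Equiv.permCongr e), Nat.card_eq_fintype_card, Fintype.card_perm]
    rfl
  have hbij : Function.Bijective φ :=
    (Nat.bijective_iff_injective_and_card φ).2 ⟨hinj, hcard⟩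
  exact ⟨(MulEquiv.ofBijective φ hbij).trans e.permCongrHom⟩

theorem partC (h : Nat.card G = 168) (M : Subgroup G) (hM : IsCoatom M)
    (h7 : ¬ 7 ∣ Nat.card M) (h3 : 3 ∣ Nat.card M) (hn : Nat.card (Sylow 3 M) ≠ 1) :
    Nonempty (M ≃* Equiv.Perm (Fin 4)) := by
  rcases cardM h M h7 h3 hn with e | e
  · exact (case12 h M hM h7 hn e).elim
  · exact case24 h M h7 hn e

end Cfsg.Agent.H17.O168C
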