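import Mathlib

set_option autoImplicit false

namespace Cfsg.Agent.H17.Suz

open Subgroup

variable {G : Type*} [Group G] {K : Type*} [Group K]

/-- `K` acts regularly on the involutions of `G`. -/
structure Act (φ : K →* MulAut G) : Prop where
  trans : ∀ x y : G, x ≠ 1 → x ^ 2 = 1 → y ≠ 1 → y ^ 2 = 1 → ∃ k, φ k x = y
  free : ∀ (k : K) (x : G), x ≠ 1 → x ^ 2 = 1 → φ k x = x → k = 1

theorem exists_invol (hG : IsPGroup 2 G) {z : G} (hz : z ≠ 1) :
    ∃ n : ℕ, z ^ n ≠ 1 ∧ (z ^ n) ^ 2 = 1 := by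
  classical
  have hex : ∃ m : ℕ, z ^ 2 ^ m = 1 := hG z
  have hm := Nat.find_spec hex
  have hmin := fun k => Nat.find_min hex (m := k)
  set m := Nat.find hex with hmdef
  have hm0 : m ≠ 0 := by
    intro h0
    rw [h0] at hm
    exact hz (by simpa using hm)
  refine ⟨2 ^ (m - 1), hmin (m - 1) (by omega), ?_⟩
  rw [← pow_mul, ← pow_succ]
  have : m - 1 + 1 = m := by omega
  rw [this]; exact hm

theorem map_mem_center (f : MulAut G) {z : G} (hz : z ∈ center G) : f z ∈ center G := by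
  rw [mem_center_iff]
  intro g
  obtain ⟨g', rfl⟩ := f.surjective g
  rw [← map_mul, ← map_mul, mem_center_iff.1 hz g']

theorem Act.central [Finite G] {φ : K →* MulAut G} (h : Act φ) (hG : IsPGroup 2 G) {x : G}
    (hx : x ^ 2 = 1) : x ∈ center G := by
  by_cases hx1 : x = 1
  · rw [hx1]; exact one_mem _
  haveI : Nontrivial G := ⟨⟨x, 1, hx1⟩⟩
  haveI : Fact (Nat.Prime 2) := ⟨Nat.prime_two⟩
  haveI := hG.center_nontrivial
  obtain ⟨z, hz⟩ := exists_ne (1 : center G)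
  have hz1 : (z : G) ≠ 1 := fun h => hz (Subtype.ext h)
  obtain ⟨n, hn1, hn2⟩ := exists_invol hG hz1
  obtain ⟨k, hk⟩ := h.trans _ x hn1 hn2 hx1 hx
  rw [← hk]
  exact map_mem_center _ (pow_mem z.2 n)

/-- The central elements of order at most two. -/
def Om (G : Type*) [Group G] : Subgroup G where
  carrier := {x | x ∈ center G ∧ x ^ 2 = 1}
  one_mem' := ⟨one_mem _, one_pow _⟩
  mul_mem' := by
    rintro a b ⟨ha, ha2⟩ ⟨hb, hb2⟩
    refine ⟨mul_mem ha hb, ?_⟩
    have hc : Commute a b := (mem_center_iff.1 hb a)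
    rw [hc.mul_pow, ha2, hb2, one_mul]
  inv_mem' := by
    rintro a ⟨ha, ha2⟩
    exact ⟨inv_mem ha, by rw [inv_pow, ha2, inv_one]⟩

theorem mem_Om {x : G} : x ∈ Om G ↔ x ∈ center G ∧ x ^ 2 = 1 := Iff.rfl

instance Om_char : (Om G).Characteristic := by
  rw [characteristic_iff_le_comap]
  intro f x hx
  rw [mem_comap]
  exact ⟨map_mem_center f hx.1, by
    show (f x) ^ 2 = 1
    rw [← map_pow, hx.2, map_one]⟩

/-- The induced action on the quotient by `Om G`. -/
noncomputable def qAct (φ : K →* MulAut G) : K →* MulAut (G ⧸ Om G) where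
  toFun k := QuotientGroup.congr (Om G) (Om G) (φ k)
    (characteristic_iff_map_eq.1 inferInstance (φ k))
  map_one' := by
    ext x
    induction x using QuotientGroup.induction_on
    simp
  map_mul' a b := by
    ext x
    induction x using QuotientGroup.induction_on
    simp only [map_mul, MulAut.mul_apply]
    rfl

theorem qAct_mk (φ : K →* MulAut G) (k : K) (x : G) :
    qAct φ k (x : G ⧸ Om G) = ((φ k x : G) : G ⧸ Om G) := rfl

theorem exists_order_four (hG : IsPGroup 2 G) {z : G} (hz : z ∈ center G) (hz2 : z ^ 2 ≠ 1) :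
    ∃ b ∈ center G, b ^ 4 = 1 ∧ b ^ 2 ≠ 1 := by
  obtain ⟨n, hn1, hn2⟩ := exists_invol hG hz2
  refine ⟨z ^ n, pow_mem hz n, ?_, ?_⟩
  · rw [← pow_mul, ← pow_mul] at hn2
    rw [← pow_mul]
    have : n * 4 = 2 * (n * 2) := by ring
    rw [this]; exact hn2
  · rw [← pow_mul] at hn1 ⊢
    rwa [mul_comm]

section four

variable [Finite G] {φ : K →* MulAut G} (h : Act φ) (hG : IsPGroup 2 G)
  {b0 : G} (hb0 : b0 ∈ center G) (hb4 : b0 ^ 4 = 1) (hb2 : b0 ^ 2 ≠ 1)

omit [Finite G] in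
include h hb0 hb4 hb2 in
theorem exists_central_sqrt {c : G} (hc : c ^ 2 = 1) : ∃ b ∈ center G, b ^ 2 = c := by
  by_cases hc1 : c = 1
  · exact ⟨1, one_mem _, by rw [hc1, one_pow]⟩
  obtain ⟨k, hk⟩ := h.trans (b0 ^ 2) c hb2 (by rw [← pow_mul]; exact hb4) hc1 hc
  exact ⟨φ k b0, map_mem_center _ hb0, by rw [← map_pow, hk]⟩

include h hG hb0 hb4 hb2 in
theorem central_of_pow_four {g : G} (hg : g ^ 4 = 1) : g ∈ center G := by
  obtain ⟨b, hb, hbg⟩ := exists_central_sqrt h hb0 hb4 hb2 (c := g ^ 2)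
    (by rw [← pow_mul]; exact hg)
  have hc : Commute g b⁻¹ := (mem_center_iff.1 (inv_mem hb) g)
  have h1 : (g * b⁻¹) ^ 2 = 1 := by
    rw [hc.mul_pow, inv_pow, hbg, mul_inv_cancel]
  have h2 := mul_mem (h.central hG h1) hb
  rwa [inv_mul_cancel_right] at h2

include h hG hb0 hb4 hb2 in
theorem Act.quot : Act (qAct φ) := by
  have h4 : ∀ g : G, g ^ 4 = 1 → g ∈ center G := fun g hg =>
    central_of_pow_four h hG hb0 hb4 hb2 hg
  have key : ∀ x : G, (x : G ⧸ Om G) ≠ 1 → (x : G ⧸ Om G) ^ 2 = 1 →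
      x ^ 2 ≠ 1 ∧ (x ^ 2) ^ 2 = 1 ∧ x ∈ center G := by
    intro x hx1 hx2
    rw [← QuotientGroup.mk_pow, QuotientGroup.eq_one_iff] at hx2
    have h3 : x ^ 4 = 1 := by
      have := hx2.2
      rwa [← pow_mul] at this
    refine ⟨fun h0 => hx1 ?_, hx2.2, h4 x h3⟩
    rw [QuotientGroup.eq_one_iff]
    exact ⟨h.central hG h0, h0⟩
  constructor
  · intro x y
    induction x using QuotientGroup.induction_on with | H x => ?_
    induction y using QuotientGroup.induction_on with | H y => ?_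
    intro hx1 hx2 hy1 hy2
    obtain ⟨hx3, hx4, hx5⟩ := key x hx1 hx2
    obtain ⟨hy3, hy4, hy5⟩ := key y hy1 hy2
    obtain ⟨k, hk⟩ := h.trans _ _ hx3 hx4 hy3 hy4
    refine ⟨k, ?_⟩
    rw [qAct_mk, QuotientGroup.eq]
    refine ⟨mul_mem (inv_mem (map_mem_center _ hx5)) hy5, ?_⟩
    have hc : Commute (φ k x)⁻¹ y := (mem_center_iff.1 hy5 _)
    rw [hc.mul_pow, inv_pow, ← map_pow, hk, inv_mul_cancel]
  · intro k x
    induction x using QuotientGroup.induction_on with | H x => ?_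
    intro hx1 hx2 hfix
    obtain ⟨hx3, hx4, hx5⟩ := key x hx1 hx2
    apply h.free k _ hx3 hx4
    rw [qAct_mk, QuotientGroup.eq] at hfix
    have hc : Commute (φ k x)⁻¹ x := (mem_center_iff.1 hx5 _)
    have h5 := hfix.2
    rw [hc.mul_pow, inv_pow, inv_mul_eq_one] at h5
    rw [map_pow, h5]

end four

end Cfsg.Agent.H17.Suz
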