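import Cfsg.Agent.H17.Suz1

set_option autoImplicit false

namespace Cfsg.Agent.H17.Suz

open Subgroup

variable {G : Type*} [Group G] {K : Type*} [Group K]

/-- The commutator of two elements. -/
def cm (x y : G) : G := x * y * x⁻¹ * y⁻¹

theorem cm_eq_one_iff {x y : G} : cm x y = 1 ↔ x * y = y * x := by
  unfold cm
  rw [mul_inv_eq_one, mul_inv_eq_iff_eq_mul]

theorem map_cm (f : MulAut G) (x y : G) : f (cm x y) = cm (f x) (f y) := by
  simp [cm]

theorem cm_self (x : G) : cm x x = 1 := by simp [cm]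

theorem cm_of_central {x : G} (hx : x ∈ center G) (y : G) : cm x y = 1 := by
  rw [cm_eq_one_iff]
  exact (mem_center_iff.1 hx y).symm

section class2

variable (hc : ∀ x y : G, cm x y ∈ Om G)

include hc

theorem cm_comm (x y g : G) : g * cm x y = cm x y * g := mem_center_iff.1 (hc x y).1 g

theorem cm_sq (x y : G) : cm x y * cm x y = 1 := by
  rw [← sq]; exact (hc x y).2

theorem cm_mul_left (x x' y : G) : cm (x * x') y = cm x y * cm x' y := by
  calc cm (x * x') y = x * cm x' y * (y * x⁻¹ * y⁻¹) := by unfold cm; group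
    _ = cm x' y * x * (y * x⁻¹ * y⁻¹) := by rw [cm_comm hc x' y x]
    _ = cm x' y * cm x y := by unfold cm; group
    _ = cm x y * cm x' y := (cm_comm hc x' y (cm x y)).symm

theorem cm_symm (x y : G) : cm y x = cm x y := by
  have h1 : cm y x = (cm x y)⁻¹ := by unfold cm; group
  rw [h1]
  exact inv_eq_of_mul_eq_one_left (cm_sq hc x y)

theorem cm_congr {x x' : G} (h : x * x'⁻¹ ∈ center G) (y : G) : cm x y = cm x' y := by
  have h1 : x = (x * x'⁻¹) * x' := by group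
  conv_lhs => rw [h1]
  rw [cm_mul_left hc, cm_of_central h, one_mul]

theorem sq_central (x : G) : x ^ 2 ∈ center G := by
  rw [mem_center_iff]
  intro g
  have h1 : cm (x ^ 2) g = 1 := by
    rw [sq, cm_mul_left hc, cm_sq hc]
  exact (cm_eq_one_iff.1 h1).symm

theorem pow_four_mul (x y : G) : (x * y) ^ 4 = x ^ 4 * y ^ 4 := by
  have hsq : ∀ x y : G, x ^ 2 * y = y * x ^ 2 := fun x y =>
    (mem_center_iff.1 (sq_central hc x) y).symm
  have hxy : (x * y) ^ 2 = cm y x * (x ^ 2 * y ^ 2) := by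
    calc (x * y) ^ 2 = x * (cm y x * (x * y)) * y := by rw [sq]; unfold cm; group
      _ = cm y x * (x ^ 2 * y ^ 2) := by
          rw [← mul_assoc x (cm y x), cm_comm hc y x x, sq, sq]; simp only [mul_assoc]
  have e4 : ∀ g : G, g ^ 4 = g ^ 2 * g ^ 2 := fun g => by rw [← pow_add]
  set c := cm y x with hcdef
  have hcc : ∀ g, g * c = c * g := cm_comm hc y x
  have hc2 : c * c = 1 := cm_sq hc y x
  calc (x * y) ^ 4 = (x * y) ^ 2 * (x * y) ^ 2 := e4 _
    _ = (c * (x ^ 2 * y ^ 2)) * (c * (x ^ 2 * y ^ 2)) := by rw [hxy]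
    _ = (c * c) * ((x ^ 2 * y ^ 2) * (x ^ 2 * y ^ 2)) := by
      rw [mul_assoc c, ← mul_assoc (x ^ 2 * y ^ 2) c, hcc (x ^ 2 * y ^ 2)]
      simp only [mul_assoc]
    _ = x ^ 2 * (y ^ 2 * x ^ 2) * y ^ 2 := by rw [hc2, one_mul]; simp only [mul_assoc]
    _ = x ^ 2 * (x ^ 2 * y ^ 2) * y ^ 2 := by rw [hsq y (x ^ 2)]
    _ = x ^ 4 * y ^ 4 := by rw [e4, e4]; simp only [mul_assoc]

theorem pow_two_pow_mul {n : ℕ} (hn : 2 ≤ n) (x y : G) :
    (x * y) ^ 2 ^ n = x ^ 2 ^ n * y ^ 2 ^ n := by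
  have e : 2 ^ n = 4 * 2 ^ (n - 2) := by
    have : n = 2 + (n - 2) := by omega
    conv_lhs => rw [this, pow_add]
    norm_num
  have hcm : Commute (x ^ 4) (y ^ 4) := by
    have : x ^ 4 = (x ^ 2) ^ 2 := by rw [← pow_mul]
    rw [this]
    exact (mem_center_iff.1 (sq_central hc _) _).symm
  rw [e, pow_mul, pow_mul, pow_mul, pow_four_mul hc, hcm.mul_pow]

theorem central_of_pow (h4 : ∀ g : G, g ^ 4 = 1 → g ∈ center G) {e : ℕ}
    (hsurj : ∀ c : G, c ^ 2 = 1 → ∃ x : G, x ^ 2 ^ (e - 1) = c) :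
    ∀ j : ℕ, 2 ≤ j → j ≤ e - 1 → ∀ y : G, y ^ 2 ^ j = 1 → y ∈ center G := by
  intro j hj
  induction j, hj using Nat.le_induction with
  | base =>
    intro _ y hy
    exact h4 y (by simpa using hy)
  | succ j hj ih =>
    intro hj1 y hy
    have hc2 : (y ^ 2 ^ j) ^ 2 = 1 := by
      rw [← pow_mul, ← pow_succ]; exact hy
    obtain ⟨x, hx⟩ := hsurj _ hc2
    have hs : (x ^ 2 ^ (e - 1 - j)) ^ 2 ^ j = y ^ 2 ^ j := by
      rw [← pow_mul, ← pow_add]
      have : e - 1 - j + j = e - 1 := by omega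
      rw [this, hx]
    have hscen : x ^ 2 ^ (e - 1 - j) ∈ center G := by
      have : e - 1 - j = (e - 1 - j - 1) + 1 := by omega
      rw [this, pow_succ, pow_mul]
      exact sq_central hc _
    have hcm : Commute y (x ^ 2 ^ (e - 1 - j))⁻¹ := mem_center_iff.1 (inv_mem hscen) y
    have h1 : (y * (x ^ 2 ^ (e - 1 - j))⁻¹) ^ 2 ^ j = 1 := by
      rw [hcm.mul_pow, inv_pow, hs, mul_inv_cancel]
    have h2 := mul_mem (ih (by omega) _ h1) hscen
    rwa [inv_mul_cancel_right] at h2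

end class2

end Cfsg.Agent.H17.Suz
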