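import Cfsg.Agent.H17.Suz2

set_option autoImplicit false

namespace Cfsg.Agent.H17.Suz

open Subgroup

variable {G : Type*} [Group G] {K : Type*} [Group K]

theorem hua [Finite G] (hG : IsPGroup 2 G) {φ : K →* MulAut G} (h : Act φ)
    (hK : ∀ a b : K, a * b = b * a) (hsqK : ∀ k : K, ∃ j, k = j * j)
    (hc : ∀ x y : G, cm x y ∈ Om G) {E : ℕ}
    (hmul : ∀ x y : G, (x * y) ^ E = x ^ E * y ^ E)
    (hker : ∀ y : G, y ^ E = 1 → y ∈ center G)
    (hE2 : ∀ x : G, (x ^ E) ^ 2 = 1)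
    {w0 : G} (hw0 : w0 ^ E ≠ 1) : w0 ∈ center G := by
  set z0 := w0 ^ E with hz0
  have hz2 : z0 ^ 2 = 1 := hE2 w0
  have hφφ : ∀ (a b : K) (x : G), φ a (φ b x) = φ (a * b) x := by
    intro a b x; simp
  have hcommφ : ∀ (a b : K) (x : G), φ a (φ b x) = φ b (φ a x) := by
    intro a b x
    rw [hφφ, hφφ, hK a b]
  have hAdd : ∀ a b c : K, φ a z0 = φ b z0 * φ c z0 →
      cm (φ a w0) w0 = cm (φ b w0) w0 * cm (φ c w0) w0 := by
    intro a b c habc
    rw [← cm_mul_left hc]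
    apply cm_congr hc
    apply hker
    rw [hmul, inv_pow, hmul, ← map_pow, ← map_pow, ← map_pow, ← hz0, habc, mul_inv_cancel]
  have hS : ∀ k : K, cm (φ k⁻¹ w0) w0 = φ k⁻¹ (cm (φ k w0) w0) := by
    intro k
    rw [map_cm, hφφ, inv_mul_cancel, map_one, MulAut.one_apply, cm_symm hc]
  have hG1 : cm (φ 1 w0) w0 = 1 := by
    rw [map_one, MulAut.one_apply, cm_self]
  have hstep : ∀ k : K, k ≠ 1 → cm (φ (k * k) w0) w0 = 1 := by
    intro k hk1
    have hzk : φ k z0 ≠ z0 := fun hfix => hk1 (h.free k z0 hw0 hz2 hfix)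
    have hzO : z0 ∈ Om G := ⟨h.central hG hz2, hz2⟩
    have hzkO : φ k z0 ∈ Om G :=
      ⟨map_mem_center _ hzO.1, by rw [← map_pow, hz2, map_one]⟩
    have hu2 : (φ k z0 * z0) ^ 2 = 1 := (mul_mem hzkO hzO).2
    have hu1 : φ k z0 * z0 ≠ 1 := by
      intro hu
      apply hzk
      rw [mul_eq_one_iff_eq_inv] at hu
      rw [hu]
      apply inv_eq_of_mul_eq_one_left
      rw [← sq]; exact hz2
    obtain ⟨k', hk'⟩ := h.trans z0 _ hw0 hz2 hu1 hu2
    have hsum : ∀ c : G, c ^ 2 = 1 → φ k' c = φ k c * c := by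
      intro c hc2
      by_cases hc1 : c = 1
      · rw [hc1]; simp
      obtain ⟨m, hm⟩ := h.trans z0 c hw0 hz2 hc1 hc2
      rw [← hm, hcommφ k' m, hk', map_mul, hcommφ m k]
    have hA : cm (φ k' w0) w0 = cm (φ k w0) w0 := by
      have := hAdd k' k 1 (by rw [hk', map_one, MulAut.one_apply])
      rw [this, hG1, mul_one]
    have e1 : k * k' * k⁻¹ = k' := by rw [hK k k', mul_inv_cancel_right]
    have e2 : k * k' * k'⁻¹ = k := mul_inv_cancel_right _ _
    have e4 : (k * k')⁻¹ * k' = k⁻¹ := by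
      rw [hK k k', mul_inv_rev, inv_mul_cancel_right]
    have e5 : (k * k')⁻¹ * k = k'⁻¹ := by
      rw [mul_inv_rev, inv_mul_cancel_right]
    have hB0 : φ k⁻¹ z0 = φ k'⁻¹ z0 * φ (k * k')⁻¹ z0 := by
      have := congrArg (φ (k * k')⁻¹) hk'
      rw [map_mul, hφφ, hφφ, e4, e5] at this
      exact this
    have hB1 := hAdd _ _ _ hB0
    rw [hS k, hS k', hS (k * k'), hA] at hB1
    have hB2 := congrArg (φ (k * k')) hB1
    rw [map_mul (φ (k * k')), hφφ, hφφ, hφφ, e1, e2, mul_inv_cancel, map_one, MulAut.one_apply,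
      hsum _ (hc _ _).2] at hB2
    have hB3 : cm (φ k w0) w0 = cm (φ (k * k') w0) w0 := mul_left_cancel hB2
    have hC0 : φ (k * k') z0 = φ (k * k) z0 * φ k z0 := by
      rw [← hφφ, hk', map_mul (φ k), hφφ]
    have hC1 := hAdd _ _ _ hC0
    rw [← hB3] at hC1
    exact mul_eq_right.1 hC1.symm
  have hall : ∀ k : K, cm (φ k w0) w0 = 1 := by
    intro k
    obtain ⟨j, rfl⟩ := hsqK k
    by_cases hj : j = 1
    · rw [hj, mul_one]; exact hG1
    · exact hstep j hj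
  rw [mem_center_iff]
  intro g
  by_cases hg : g ^ E = 1
  · exact (mem_center_iff.1 (hker g hg) w0).symm
  · obtain ⟨k, hk⟩ := h.trans z0 _ hw0 hz2 hg (hE2 g)
    rw [← cm_eq_one_iff, ← hall k]
    apply cm_congr hc
    apply hker
    rw [hmul, inv_pow, ← map_pow, ← hz0, hk, mul_inv_cancel]

theorem abelian_of_class2 [Finite G] (hG : IsPGroup 2 G) {φ : K →* MulAut G} (h : Act φ)
    (hK : ∀ a b : K, a * b = b * a) (hsqK : ∀ k : K, ∃ j, k = j * j)
    (h4 : ∀ g : G, g ^ 4 = 1 → g ∈ center G)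
    (hc : ∀ x y : G, cm x y ∈ Om G) : ∀ x : G, x ∈ center G := by
  classical
  have hex : ∃ e : ℕ, ∀ x : G, x ^ 2 ^ e = 1 := by
    obtain ⟨n, hn⟩ := IsPGroup.iff_card.1 hG
    exact ⟨n, fun x => by rw [← hn]; exact pow_card_eq_one'⟩
  have he := Nat.find_spec hex
  have hmin := fun k => Nat.find_min hex (m := k)
  set e := Nat.find hex with hedef
  by_cases he2 : e ≤ 2
  · intro x
    apply h4
    have h1 := orderOf_dvd_of_pow_eq_one (he x)
    have h2 : (2 : ℕ) ^ e ∣ 2 ^ 2 := pow_dvd_pow 2 he2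
    exact orderOf_dvd_iff_pow_eq_one.1 (h1.trans h2)
  · have he3 : 3 ≤ e := by omega
    have h1 := hmin (e - 1) (by omega)
    push Not at h1
    obtain ⟨w1, hw1⟩ := h1
    have hE2 : ∀ x : G, (x ^ 2 ^ (e - 1)) ^ 2 = 1 := by
      intro x
      rw [← pow_mul, ← pow_succ]
      have : e - 1 + 1 = e := by omega
      rw [this]; exact he x
    have hsurj : ∀ c : G, c ^ 2 = 1 → ∃ x : G, x ^ 2 ^ (e - 1) = c := by
      intro c hc2
      by_cases hc1 : c = 1
      · exact ⟨1, by rw [hc1, one_pow]⟩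
      obtain ⟨k, hk⟩ := h.trans _ c hw1 (hE2 w1) hc1 hc2
      exact ⟨φ k w1, by rw [← map_pow, hk]⟩
    have hker : ∀ y : G, y ^ 2 ^ (e - 1) = 1 → y ∈ center G :=
      central_of_pow hc h4 hsurj (e - 1) (by omega) le_rfl
    intro x
    by_cases hx : x ^ 2 ^ (e - 1) = 1
    · exact hker x hx
    · exact hua hG h hK hsqK hc (pow_two_pow_mul hc (by omega)) hker hE2 hx

end Cfsg.Agent.H17.Suz
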