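import Cfsg.Agent.H17.Suz3

set_option autoImplicit false

namespace Cfsg.Agent.H17.Suz

open Subgroup

universe u v

theorem center_top_of_second {Q : Type*} [Group Q] [Group.IsNilpotent Q]
    (hQ : ∀ y : Q, (∀ g : Q, cm y g ∈ center Q) → y ∈ center Q) : ∀ y : Q, y ∈ center Q := by
  obtain ⟨n, hn⟩ := Group.IsNilpotent.nilpotent Q
  have key : ∀ m : ℕ, Subgroup.upperCentralSeries Q m ≤ center Q := by
    intro m
    induction m with
    | zero => simp
    | succ m ih =>
      intro y hy
      rw [Subgroup.mem_upperCentralSeries_succ_iff] at hy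
      apply hQ
      intro g
      have := ih (hy g)
      rwa [commutatorElement_def] at this
  intro y
  apply key n
  rw [hn]; trivial

theorem mk_cm {G : Type*} [Group G] (N : Subgroup G) [N.Normal] (x y : G) :
    ((cm x y : G) : G ⧸ N) = cm (x : G ⧸ N) (y : G ⧸ N) := rfl

theorem cm_sq_left {G : Type*} [Group G] {y g : G} (h : cm y g ∈ center G) :
    cm (y ^ 2) g = (cm y g) ^ 2 := by
  calc cm (y ^ 2) g = y * cm y g * (g * y⁻¹ * g⁻¹) := by rw [sq]; unfold cm; group
    _ = cm y g * y * (g * y⁻¹ * g⁻¹) := by rw [mem_center_iff.1 h y]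
    _ = (cm y g) ^ 2 := by rw [sq]; unfold cm; group

theorem main_aux {K : Type v} [Group K] (hK : ∀ a b : K, a * b = b * a)
    (hsqK : ∀ k : K, ∃ j, k = j * j) :
    ∀ n : ℕ, ∀ (G : Type u) [Group G] [Finite G], Nat.card G = n → IsPGroup 2 G →
      ∀ φ : K →* MulAut G, Act φ → ∀ z ∈ center G, z ^ 2 ≠ 1 → ∀ x : G, x ∈ center G := by
  intro n
  induction n using Nat.strong_induction_on with
  | _ n ih =>
  intro G _ _ hcard hG φ h z hz hz2
  haveI : Fact (Nat.Prime 2) := ⟨Nat.prime_two⟩
  obtain ⟨b0, hb0, hb4, hb2⟩ := exists_order_four hG hz hz2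
  have h4 : ∀ g : G, g ^ 4 = 1 → g ∈ center G := fun g hg =>
    central_of_pow_four h hG hb0 hb4 hb2 hg
  have hQ : Act (qAct φ) := Act.quot h hG hb0 hb4 hb2
  have hGQ : IsPGroup 2 (G ⧸ Om G) := hG.to_quotient _
  have hlt : Nat.card (G ⧸ Om G) < n := by
    have h1 := Subgroup.card_eq_card_quotient_mul_card_subgroup (Om G)
    have h2 : 1 < Nat.card (Om G) := by
      rw [Subgroup.one_lt_card_iff_ne_bot]
      intro hbot
      have : b0 ^ 2 ∈ Om G := ⟨pow_mem hb0 2, by rw [← pow_mul]; exact hb4⟩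
      rw [hbot, mem_bot] at this
      exact hb2 this
    have h3 : 0 < Nat.card (G ⧸ Om G) := Nat.card_pos
    rw [← hcard, h1]
    nlinarith
  have hQab : ∀ q : G ⧸ Om G, q ∈ center (G ⧸ Om G) := by
    by_cases hex : ∃ q ∈ center (G ⧸ Om G), q ^ 2 ≠ 1
    · obtain ⟨q, hq, hq2⟩ := hex
      exact ih _ hlt (G ⧸ Om G) rfl hGQ (qAct φ) hQ q hq hq2
    · push Not at hex
      haveI : Group.IsNilpotent (G ⧸ Om G) := hGQ.isNilpotent
      apply center_top_of_second
      intro y
      induction y using QuotientGroup.induction_on with | H y => ?_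
      intro hy
      have hcen : ∀ g : G, cm y g ∈ center G := by
        intro g
        have h1 := hex _ (hy (g : G ⧸ Om G))
        rw [← mk_cm, ← QuotientGroup.mk_pow, QuotientGroup.eq_one_iff] at h1
        apply h4
        have := h1.2
        rwa [← pow_mul] at this
      have hcen2 : ∀ g : G, (cm y g) ^ 2 ∈ Om G := by
        intro g
        have h1 := hex _ (hy (g : G ⧸ Om G))
        rwa [← mk_cm, ← QuotientGroup.mk_pow, QuotientGroup.eq_one_iff] at h1
      have ha : ((y ^ 2 : G) : G ⧸ Om G) ∈ center (G ⧸ Om G) := by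
        rw [mem_center_iff]
        intro g
        induction g using QuotientGroup.induction_on with | H g => ?_
        symm
        rw [← cm_eq_one_iff, ← mk_cm, QuotientGroup.eq_one_iff, cm_sq_left (hcen g)]
        exact hcen2 g
      have ha2 := hex _ ha
      rw [← QuotientGroup.mk_pow, QuotientGroup.eq_one_iff] at ha2
      have hy2 : y ^ 2 ∈ center G := by
        apply h4
        have := ha2.2
        rwa [← pow_mul] at this
      rw [mem_center_iff]
      intro g
      induction g using QuotientGroup.induction_on with | H g => ?_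
      symm
      rw [← cm_eq_one_iff, ← mk_cm, QuotientGroup.eq_one_iff]
      refine ⟨hcen g, ?_⟩
      rw [← cm_sq_left (hcen g), cm_of_central hy2]
  have hc : ∀ x y : G, cm x y ∈ Om G := by
    intro x y
    rw [← QuotientGroup.eq_one_iff, mk_cm, cm_eq_one_iff]
    exact (mem_center_iff.1 (hQab x) y).symm
  exact abelian_of_class2 hG h hK hsqK h4 hc

theorem Act.sq_surj {G : Type*} [Group G] {K : Type*} [Group K] [Finite G]
    {φ : K →* MulAut G} (h : Act φ) (hG : IsPGroup 2 G)
    (hK : ∀ a b : K, a * b = b * a) {z0 : G} (hz0 : z0 ≠ 1) (hz2 : z0 ^ 2 = 1) :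
    ∀ k : K, ∃ j, k = j * j := by
  have hinj : Function.Injective (fun k : K => φ k z0) := by
    intro a b hab
    have h1 : φ (b⁻¹ * a) z0 = z0 := by
      rw [map_mul, MulAut.mul_apply]
      show φ b⁻¹ (φ a z0) = z0
      have hab' : φ a z0 = φ b z0 := hab
      rw [hab', ← MulAut.mul_apply, ← map_mul, inv_mul_cancel, map_one, MulAut.one_apply]
    have := h.free _ _ hz0 hz2 h1
    rw [inv_mul_eq_one] at this
    exact this.symm
  haveI : Finite K := Finite.of_injective _ hinj
  have hone : ∀ j : K, j * j = 1 → j = 1 := by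
    intro j hj
    have hzO : z0 ∈ Om G := ⟨h.central hG hz2, hz2⟩
    have hzjO : φ j z0 ∈ Om G :=
      ⟨map_mem_center _ hzO.1, by rw [← map_pow, hz2, map_one]⟩
    by_cases hu : z0 * φ j z0 = 1
    · apply h.free j z0 hz0 hz2
      have h1 : φ j z0 = z0⁻¹ := (eq_inv_of_mul_eq_one_right hu)
      rw [h1]
      apply inv_eq_of_mul_eq_one_left
      rw [← sq]; exact hz2
    · apply h.free j _ hu (mul_mem hzO hzjO).2
      rw [map_mul, ← MulAut.mul_apply, ← map_mul, hj, map_one, MulAut.one_apply]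
      exact (mem_center_iff.1 hzO.1 _)
  have hinj2 : Function.Injective (fun j : K => j * j) := by
    intro a b hab
    have hab' : a * a = b * b := hab
    have h1 : (a * b⁻¹) * (a * b⁻¹) = 1 := by
      calc (a * b⁻¹) * (a * b⁻¹) = a * (b⁻¹ * a) * b⁻¹ := by group
        _ = a * (a * b⁻¹) * b⁻¹ := by rw [hK b⁻¹ a]
        _ = (a * a) * b⁻¹ * b⁻¹ := by group
        _ = 1 := by rw [hab']; group
    have := hone _ h1
    rwa [mul_inv_eq_one] at this
  intro k
  obtain ⟨j, hj⟩ := Finite.surjective_of_injective hinj2 k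
  exact ⟨j, hj.symm⟩

theorem main {G : Type*} [Group G] {K : Type*} [Group K] [Finite G]
    {φ : K →* MulAut G} (h : Act φ) (hG : IsPGroup 2 G)
    (hK : ∀ a b : K, a * b = b * a) {z0 : G} (hz0 : z0 ≠ 1) (hz2 : z0 ^ 2 = 1)
    {x y : G} (hxy : x * y ≠ y * x) : ∀ z ∈ center G, z ^ 2 = 1 := by
  intro z hz
  by_contra hz2'
  apply hxy
  have := main_aux hK (h.sq_surj hG hK hz0 hz2) _ G rfl hG φ h z hz hz2' y
  exact mem_center_iff.1 this x

end Cfsg.Agent.H17.Suz
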