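import Cfsg.Agent.H17.SylNum5

set_option autoImplicit false

/-! `n_5 ≠ 21`. -/

namespace Cfsg.Agent.H17.SylNum

open Subgroup MulAction
open scoped Pointwise

universe u

variable {G : Type u} [Group G] [Finite G]

local instance : Fact (Nat.Prime 5) := ⟨by norm_num⟩
local instance : Fact (Nat.Prime 7) := ⟨by norm_num⟩

set_option maxRecDepth 100000 in
theorem arith_fifteen : ∀ d ∈ Nat.divisors 1260, 5 ∣ d → d % 7 = 1 → d = 15 := by decide

theorem red_false (hc : Nat.card (Sylow 5 G) = 21) (hr : Red 5 G) : False := by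
  obtain ⟨P⟩ : Nonempty (Sylow 5 G) := inferInstance
  have hN := card_normalizer_dvd_sixty hc hr P
  have hG : Nat.card G = Nat.card (normalizer (P : Set G)) * 21 := by
    rw [← hc, Sylow.card_eq_index_normalizer P, Subgroup.card_mul_index]
  have hG1260 : Nat.card G ∣ 1260 := by
    rw [hG]
    exact Nat.mul_dvd_mul_right hN 21
  have h7G : 7 ∣ Nat.card G := by rw [hG]; exact Dvd.dvd.mul_left (by norm_num) _
  have h5G : 5 ∣ Nat.card G := by
    rw [← card_five hc hr P]; exact Subgroup.card_subgroup_dvd_card _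
  obtain ⟨S⟩ : Nonempty (Sylow 7 G) := inferInstance
  have hS : Nat.card S = 7 := by
    obtain ⟨k, hk⟩ := IsPGroup.iff_card.mp S.2
    have h1 := S.dvd_card_of_dvd_card h7G
    have h2 : Nat.card S ∣ 1260 := (Subgroup.card_subgroup_dvd_card _).trans hG1260
    have hk' : Nat.card S = 7 ^ k := hk
    rw [hk'] at h1 h2 ⊢
    rcases k with _ | _ | k
    · norm_num at h1
    · norm_num
    · exfalso
      have : 7 ^ 2 ∣ 1260 := (pow_dvd_pow 7 (by omega)).trans h2
      norm_num at this
  have hn7 : Nat.card (Sylow 7 G) * Nat.card (normalizer (S : Set G)) = Nat.card G := by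
    rw [Sylow.card_eq_index_normalizer S, mul_comm, Subgroup.card_mul_index]
  have h5n : ¬ 5 ∣ Nat.card (normalizer (S : Set G)) := by
    intro h5
    have h1 : Nat.card (normalizer (S : Set G)) ∣ Nat.card (centralizer (S : Set G)) * (7 - 1) :=
      card_normalizer_dvd (X := (S : Subgroup G)) (by norm_num) hS
    have h2 : 5 ∣ Nat.card (centralizer (S : Set G)) :=
      (Nat.Coprime.dvd_of_dvd_mul_right (by norm_num) (h5.trans h1))
    obtain ⟨x, hx⟩ := exists_prime_orderOf_dvd_card' 5 h2
    have hx' : orderOf (x : G) = 5 := by rw [Subgroup.orderOf_coe, hx]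
    have hpg : IsPGroup 5 (zpowers (x : G)) :=
      IsPGroup.of_card (n := 1) (by rw [Nat.card_zpowers, hx', pow_one])
    obtain ⟨P', hP'⟩ := hpg.exists_le_sylow
    have hP'eq : zpowers (x : G) = P' := by
      apply Subgroup.eq_of_le_of_card_ge hP'
      rw [Nat.card_zpowers, hx']
      exact (card_five hc hr P').le
    have hSle : (S : Subgroup G) ≤ normalizer (P' : Set G) := by
      refine le_trans ?_ (centralizer_le_normalizer (P' : Set G))
      intro y hy
      rw [mem_centralizer_iff]
      intro z hz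
      have hz' : z ∈ zpowers (x : G) := by rw [hP'eq]; exact hz
      obtain ⟨k, rfl⟩ := mem_zpowers_iff.mp hz'
      have h3 : y * (x : G) = (x : G) * y := mem_centralizer_iff.mp x.2 y hy
      have h4 : Commute (x : G) y := h3.symm
      exact (h4.zpow_left k).eq
    have h5 := Subgroup.card_dvd_of_le hSle
    have h6 : Nat.card (S : Subgroup G) = 7 := hS
    rw [h6] at h5
    have := h5.trans (card_normalizer_dvd_sixty hc hr P')
    norm_num at this
  have h5n7 : 5 ∣ Nat.card (Sylow 7 G) := by
    rw [← hn7] at h5G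
    rcases (Nat.Prime.dvd_mul (by norm_num)).mp h5G with h | h
    · exact h
    · exact absurd h h5n
  have hmod : Nat.card (Sylow 7 G) % 7 = 1 := card_sylow_modEq_one 7 G
  have hdiv : Nat.card (Sylow 7 G) ∈ Nat.divisors 1260 := by
    rw [Nat.mem_divisors]
    exact ⟨(Dvd.intro _ hn7).trans hG1260, by norm_num⟩
  have h15 := arith_fifteen _ hdiv h5n7 hmod
  exact Cfsg.Agent.H5SylowNum.card_sylow_ne (G := G) 7 (by norm_num) (by norm_num) (by norm_num)
    (by norm_num) (by norm_num) h15

/-- No finite group has exactly 21 Sylow 5-subgroups. -/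
theorem card_sylow_five_ne (G : Type u) [Group G] [Finite G] : Nat.card (Sylow 5 G) ≠ 21 :=
  no_group_of_no_red 5 21 (fun _ _ _ hr hc => red_false hc hr) G

end Cfsg.Agent.H17.SylNum
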